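import Cfsg.Agent.Lib.HNT.StC
import Cfsg.Agent.Lib.HNT.RecD
/-! Standard subgroups 2.HS: commuting conjugates of the central involution -/
set_option autoImplicit false
set_option maxRecDepth 100000
set_option maxHeartbeats 400000
namespace H54.HNT
open Cfsg.Spor H15.Mdl H54.HN H16 Cfsg MulAction
theorem goodX : Good c100 (finPt 100) rX (ψ.range ⊓ Subgroup.centralizer {ψ (ev [10])}) :=
  ((range_ψ ▸ goodH3 :).centralizer_one F100 (Kfix_fin rfl)
    ((congrArg ψ (mul_one (N 5))).symm ▸ lets 10 (by norm_num)) rX_low centX).1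
theorem six {q : P} (h : Commute (ψ q) (ψ (ev [10]))) (h6 : ψ q ^ 6 = ψ (ev [10])) : ψ q ^ 4 = 1 := by
  obtain ⟨a, r, e⟩ := goodX.forall_of_allElts F100 sX_ok _ ⟨⟨q, rfl⟩, Subgroup.mem_centralizer_singleton_iff.2 h.eq⟩
  simp only [sXP, force_eq, bor_eq_true, bnot_eq_true] at e
  have r2 := r.mul F100 r
  have r4 := r2.mul F100 r2
  rcases e with e | e
  · have := (r4.of_eqc F100 e).mem_K_of_one F100
    have hK : Kfix (Equiv.Perm (Fin 100)) c100 (finPt 100) = ⊥ := Kfix_fin rfl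
    rw [hK, Subgroup.mem_bot] at this
    rw [← this]; simp [pow_succ, mul_assoc]
  · have r6 := r4.mul F100 r2
    rw [show ψ q * ψ q * (ψ q * ψ q) * (ψ q * ψ q) = ψ (xl N 10) by
      rw [← mul_one (xl N 10), ← evW_nil N, ← evW_cons, ← h6]; simp [pow_succ, mul_assoc]] at r6
    exact absurd (r6.eqc_of_eq F100 (lets 10 (by norm_num))) e
theorem up_r (q : P) {w : List ℕ} (h : ∀ l ∈ w, l < 2 * 17) : evW (Function.update N 17 q) (w ++ [34]) = ev w * q := by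
  rw [evW_append, up_v, up_l _ h, evW_nil, mul_one]
theorem eighth {q : P} (h : Commute (ψ q) (ψ (ev [8]))) (h0 : Commute (ψ q) (ψ (ev [0]))) (h2 : ψ q * ψ q = 1) :
    ψ q = 1 ∨ ψ q = ψ (ev [8]) := by
  obtain ⟨k, hk, u, hu, e⟩ := srch goodR s8_wf s8_ok h (by
    intro t ht
    rcases List.mem_pair.1 ht with rfl | rfl
    · rw [up_v, up_l _ (by decide), show [0, 34] = [0] ++ [34] from rfl, up_r _ (by decide), map_mul, map_mul, h0.eq]
    · rw [up_v, up_v, evW_nil, mul_one, map_mul, h2, map_one])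
  rw [gen0 hk, one_mul, inv_one, mul_one] at e
  rcases List.mem_pair.1 hu with rfl | rfl
  exacts [.inl (e.trans (map_one ψ)), .inr e]
theorem ninth {q : P} (h : Commute (ψ q) (ψ (ev [8]))) (h0 : Commute (ψ q) (ψ (ev [0])))
    (h2 : Commute (ψ q) (ψ (ev [4]))) : ∃ u ∈ s9U, ψ q = ψ (ev u) := by
  obtain ⟨k, hk, u, hu, e⟩ := srch goodR s9_wf s9_ok h (by
    intro t ht
    rcases List.mem_pair.1 ht with rfl | rfl
    · rw [up_v, up_l _ (by decide), show [0, 34] = [0] ++ [34] from rfl, up_r _ (by decide), map_mul, map_mul, h0.eq]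
    · rw [up_v, up_l _ (by decide), show [4, 34] = [4] ++ [34] from rfl, up_r _ (by decide), map_mul, map_mul, h2.eq])
  rw [gen0 hk, one_mul, inv_one, mul_one] at e
  exact ⟨u, hu, e⟩
theorem ψ_ne (w : List ℕ) (h1 : cmp w [] = false) (h2 : cmp w [10, 10] = false) : ψ (ev w) ≠ 1 := fun e =>
  (ker_ψ e).elim (nev _ _ h1) (ev_c ▸ nev _ _ h2)
theorem K_of_ψ {q r : P} (h : ψ q = ψ r) (hr : r ∈ K) : q ∈ K :=
  (eq_of_ψ h).elim (· ▸ hr) (· ▸ K.mul_mem hr cK)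
theorem toK {k u o : P} (ho : o ∉ K) (h : Commute (ψ o) (ψ u)) : ∃ k' ∈ K, (k' = k ∨ k' = k * o) ∧
    ψ (k' * u * k'⁻¹) = ψ (k * u * k⁻¹) := by
  by_cases hk : k ∈ K
  · exact ⟨k, hk, .inl rfl, rfl⟩
  · exact ⟨_, mulK hk ho, .inr rfl, by
      simp only [map_mul, map_inv, mul_inv_rev, mul_assoc]; rw [← mul_assoc (ψ o), h.eq, mul_assoc, mul_inv_cancel_left]⟩
theorem five' {q : P} (h : Commute (ψ q) (ψ (ev [8]))) (h5 : ψ q ^ 5 = 1) :
    ψ q = 1 ∨ ∃ k ∈ K, Commute k (ev [8]) ∧ ψ q = ψ (k * ev [0] * k⁻¹) := by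
  obtain ⟨k, hk, u, hu, e⟩ := srch goodR s2_wf s2_ok h (by
    intro t ht
    rw [List.mem_singleton.1 ht, up_v, up_v, up_v, up_v, up_v, evW_nil, map_one, ← h5]
    simp [pow_succ, mul_assoc])
  rcases List.mem_pair.1 hu with rfl | rfl
  · exact Or.inl (by simpa using e)
  · obtain ⟨k', a, b, d⟩ := toK (k := k) (niK [2]) ((cm [2] [0]).map ψ)
    exact .inr ⟨k', a, b.elim (· ▸ genR hk) (· ▸ (genR hk).mul_left (cm [2] [8])), e.trans d.symm⟩
theorem memW {Γ : Type*} [Group Γ] {x : ℕ → Γ} {M : Subgroup Γ} {L : List (List ℕ)} (h : ∀ w ∈ L, evW x w ∈ M)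
    (u : List ℕ) : evW x (subW L u) ∈ M := by
  rw [evW_subW]
  exact evW_mem fun l _ => (nthW_mem L _).elim (fun e => e ▸ M.one_mem) (h _)
section
variable {S : Subgroup (P × P)} (hS : ∀ {a b b'}, (a, b) ∈ S → (a, b') ∈ S → ψ b = ψ b')
theorem S_word {b : P} (h0 : (ev [16], ev [0]) ∈ S) (h1 : (c, ev [8]) ∈ S)
    (h2 : (ev [6], b) ∈ S) {w : List ℕ} (hw : ∀ l ∈ w, l / 2 ∈ [0, 4, 17]) :
    (ev (subW Emb.SRC w), evW (Function.update N 17 b) w) ∈ S := by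
  have := evW_mem (x := fun i => (ev (nthW Emb.SRC i), Function.update N 17 b i)) (K := S) (w := w) fun l hl => by
    have := hw l hl
    simp only [List.mem_cons, List.not_mem_nil, or_false] at this
    rcases this with e | e | e <;> rw [e]
    · rw [Function.update_of_ne (by norm_num), ← mul_one (N 0)]; exact h0
    · rw [Function.update_of_ne (by norm_num), ← mul_one (N 4)]; exact ev_c ▸ h1
    · rw [Function.update_self]; exact h2
  generalize hf : (fun i => (ev (nthW Emb.SRC i), Function.update N 17 b i)) = F at this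
  have a1 := map_evW (MonoidHom.fst P P) F w
  have a2 := map_evW (MonoidHom.snd P P) F w
  subst hf
  convert this using 1
  exact Prod.ext ((evW_subW _ _ _).trans a1.symm) a2.symm
include hS in
theorem S_test {b : P} (h0 : (ev [16], ev [0]) ∈ S) (h1 : (c, ev [8]) ∈ S)
    (h2 : (ev [6], b) ∈ S) {vw : List ℕ} (hv : (ev vw, 1) ∈ S) {T : List (List ℕ × List ℕ)}
    (e : allL (fun a => band (decide (∀ l ∈ a.1 ++ a.2, l / 2 ∈ [0, 4, 17]))
      (bor (cmp (subW Emb.SRC a.1) (subW Emb.SRC a.2)) (cmp (subW Emb.SRC a.1) (vw ++ subW Emb.SRC a.2)))) T = true) :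
    ∀ a ∈ T, ψ (evW (Function.update N 17 b) a.1) = ψ (evW (Function.update N 17 b) a.2) := fun a ha => by
  have := (allL_iff _ _).1 e a ha
  simp only [band_eq_true, bor_eq_true, decide_eq_true_eq, cmp_iff] at this
  have a1 := S_word h0 h1 h2 fun l hl => this.1 l (List.mem_append_left _ hl)
  have a2 := S_word h0 h1 h2 fun l hl => this.1 l (List.mem_append_right _ hl)
  rcases this.2 with e | e <;> rw [e] at a1
  · exact hS a1 a2
  · have := S.mul_mem hv a2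
    rw [Prod.mk_mul_mk, one_mul, ← evW_append] at this
    exact hS a1 this
end
variable {G : Type*} [Group G] {F : P → G}
/-- `g` acts on the image of `K` like `q` -/
def Act (F : P → G) (g : G) (q : P) : Prop := ∀ y ∈ K, g * F y * g⁻¹ = F (q * y * q⁻¹)
theorem Act.mul {g h : G} {q r : P} (a : Act F g q) (b : Act F h r) : Act F (g * h) (q * r) := fun y hy => by
  rw [mul_inv_rev, mul_inv_rev, ← mul_assoc, mul_assoc g, mul_assoc g, b y hy, a _ (conjK.2 hy)]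
  simp only [mul_assoc]
theorem Act.one : Act F 1 1 := fun y _ => by simp
theorem Act.inv {g : G} {q : P} (a : Act F g q) : Act F g⁻¹ q⁻¹ := fun y hy => by
  have := a _ (normal_K.conj_mem _ hy q⁻¹)
  rw [show q * (q⁻¹ * y * q⁻¹⁻¹) * q⁻¹ = y by group] at this
  rw [← this]; group
theorem Act.pow {g : G} {q : P} (a : Act F g q) : ∀ n : ℕ, Act F (g ^ n) (q ^ n)
  | 0 => by rw [pow_zero, pow_zero]; exact Act.one
  | n + 1 => by rw [pow_succ, pow_succ]; exact (a.pow n).mul a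
theorem Act.congr {g : G} {q r : P} (a : Act F g q) (h : ψ q = ψ r) : Act F g r := fun y hy => by
  rw [a y hy]
  rcases eq_of_ψ h with rfl | rfl
  · rfl
  · rw [mul_inv_rev, mul_assoc r, ← (cen y).eq]; simp [mul_assoc]
theorem Act.ct {g : G} {q : P} (a : Act F g q) : Commute g (F c) :=
  mul_inv_eq_iff_eq_mul.1 ((a c cK).trans (by rw [(cen q).eq, mul_inv_cancel_right]))
theorem Act.cF {g : G} {q y : P} (a : Act F g q) (hy : y ∈ K) (h : Commute q y) : Commute g (F y) :=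
  mul_inv_eq_iff_eq_mul.1 ((a y hy).trans (by rw [h.eq, mul_inv_cancel_right]))
theorem Act.ker {g h : G} {q : P} (a : Act F g q) (b : Act F h 1) : Act F (g * h * g⁻¹) 1 := by
  simpa using (a.mul b).mul a.inv
/-- a standard subgroup -/
structure St (F : P → G) : Prop where
  inj : ∀ {q r}, q ∈ K → r ∈ K → F q = F r → q = r
  mul : ∀ {q r}, q ∈ K → r ∈ K → F (q * r) = F q * F r
  act : ∀ {g}, Commute g (F c) → ∃ q, Act F g q
  ti : ∀ {a g}, a * a = 1 → a ≠ 1 → Act F a 1 → Act F (g * a * g⁻¹) 1 → Commute g (F c)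
namespace St
variable (E : St F)
include E
theorem one : F 1 = 1 := by
  have := E.mul K.one_mem K.one_mem
  rwa [mul_one, eq_comm, mul_eq_left] at this
theorem inv {q : P} (h : q ∈ K) : F q⁻¹ = (F q)⁻¹ := by
  rw [eq_inv_iff_mul_eq_one, ← E.mul (K.inv_mem h) h, inv_mul_cancel, E.one]
theorem aF {q : P} (h : q ∈ K) : Act F (F q) q := fun y hy => by
  rw [E.mul (K.mul_mem h hy) (K.inv_mem h), E.mul h hy, E.inv h]
theorem tt : F c * F c = 1 := by rw [← E.mul cK cK, c_sq, E.one]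
theorem t1 : F c ≠ 1 := fun h => sq_ne (E.inj cK K.one_mem (h.trans E.one.symm))
theorem at1 : Act F (F c) 1 := (E.aF cK).congr (ψ_c.trans (map_one ψ).symm)
theorem uniq {g : G} {q r : P} (a : Act F g q) (b : Act F g r) : ψ q = ψ r := by
  rcases centK (q := r⁻¹ * q) fun y hy => by
    have := E.inj (conjK.2 hy) (conjK.2 hy) ((a y hy).symm.trans (b y hy))
    rw [Commute, SemiconjBy, mul_assoc, mul_inv_eq_iff_eq_mul.1 this]; simp [mul_assoc] with e | e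
  · rw [inv_mul_eq_one.1 e]
  · rw [inv_mul_eq_iff_eq_mul.1 e, map_mul, ψ_c, mul_one]
theorem comm {g h : G} {q r : P} (a : Act F g q) (b : Act F h r) (e : Commute g h) : Commute (ψ q) (ψ r) := by
  have := E.uniq (a.mul b) (e.eq ▸ b.mul a)
  rwa [map_mul, map_mul] at this
theorem Fc {g : G} {q y : P} (a : Act F g q) (hy : y ∈ K) (h : Commute g (F y)) : Commute q y :=
  mul_inv_eq_iff_eq_mul.1 (E.inj (conjK.2 hy) hy ((a y hy).symm.trans (mul_inv_eq_iff_eq_mul.2 h)))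
theorem adj {b : G} {q k u : P} (a : Act F b q) (hk : k ∈ K) (h : ψ q = ψ (k * u * k⁻¹)) :
    Act F ((F k)⁻¹ * b * F k) u := (((E.aF hk).inv.mul a).mul (E.aF hk)).congr (ψ_cj h)
theorem cls {b : G} {q : P} (a : Act F b q) (h : b * b = 1) : ∃ k ∈ K, ∃ u ∈ s1U, ψ q = ψ (k * ev u * k⁻¹) := by
  obtain ⟨k, u, hu, e⟩ := HNT.cls ((E.uniq (a.mul a) (h ▸ Act.one)).trans (map_one ψ))
  obtain ⟨k', h1, -, h2⟩ := toK (k := k) (u := ev u) (niK [4]) (by
    simp only [s1U, List.mem_cons, List.not_mem_nil, or_false] at hu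
    rcases hu with rfl | rfl | rfl | rfl | rfl
    exacts [(cm _ _).map ψ, (cm _ _).map ψ, by
      rw [commute_iff_eq, ← map_mul, ml [4] [10] ([10] ++ [4] ++ [10, 10]), ← ev_mc, map_mul, ψ_c, mul_one, ev,
        evW_append, map_mul], (cm _ _).map ψ, (cm _ _).map ψ])
  refine ⟨k', h1, u, hu, .trans ?_ h2.symm⟩
  rcases e with rfl | rfl
  · rfl
  · rw [← ev_mc]; simp [ψ_c]
/-- the graph of conjugation by `g` -/
def S (g : G) : Subgroup (P × P) where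
  carrier := {a | a.1 ∈ K ∧ Act F (g * F a.1 * g⁻¹) a.2}
  one_mem' := ⟨K.one_mem, by simpa [E.one] using Act.one⟩
  mul_mem' := fun {a b} h h' => ⟨K.mul_mem h.1 h'.1, by
    rw [Prod.fst_mul, E.mul h.1 h'.1, ← conj_mul]; exact h.2.mul h'.2⟩
  inv_mem' := fun {a} h => ⟨K.inv_mem h.1, by rw [Prod.fst_inv, E.inv h.1, ← conj_inv]; exact h.2.inv⟩
theorem S_eq {g : G} {a b b' : P} (h : (a, b) ∈ E.S g) (h' : (a, b') ∈ E.S g) : ψ b = ψ b' := E.uniq h.2 h'.2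
theorem S_ex {g : G} {v y : P} (h : Act F (g⁻¹ * F c * g) v) (hy : y ∈ K) (e : Commute v y) :
    ∃ q, (y, q) ∈ E.S g := by
  obtain ⟨q, a⟩ := E.act (g := g * F y * g⁻¹) (by
    simpa [mul_assoc] using (h.cF hy e).symm.map (MulAut.conj g))
  exact ⟨q, hy, a⟩
theorem S_cm {g : G} {a b a' b' : P} (h : (a, b) ∈ E.S g) (h' : (a', b') ∈ E.S g) (e : Commute a a') :
    Commute (ψ b) (ψ b') := by
  have m : (a' * a, b' * b) ∈ E.S g := (E.S g).mul_mem h' h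
  have := E.S_eq (a := a * a') ((E.S g).mul_mem h h') (e.eq ▸ m)
  rwa [map_mul, map_mul] at this
theorem S_c {g : G} {a b : P} (h : (a, b) ∈ E.S g) (e : ψ b = 1) : (a, 1) ∈ E.S g :=
  ⟨h.1, h.2.congr (e.trans (map_one ψ).symm)⟩
theorem S_n {g : G} {a b y : P} (h : (a, b) ∈ E.S g) (e : (y, 1) ∈ E.S g) : (a * y * a⁻¹, 1) ∈ E.S g := by
  simpa using (E.S g).mul_mem ((E.S g).mul_mem h e) ((E.S g).inv_mem h)
theorem S_adj {g o : G} {a b k u : P} (h : (a, b) ∈ E.S g) (ho : Act F o k) (e : ψ b = ψ (k * u * k⁻¹)) :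
    (a, u) ∈ E.S (o⁻¹ * g) :=
  ⟨h.1, by simpa [mul_assoc] using ((ho.inv.mul h.2).mul ho).congr (ψ_cj e)⟩
theorem noX0 {g : G} {v : List ℕ} (hv : v = [8] ∨ v = [6, 14]) (h1 : Act F (g * F c * g⁻¹) (ev [10]))
    (h2 : Act F (g⁻¹ * F c * g) (ev v)) : False := by
  obtain ⟨q, m⟩ := E.S_ex h2 (inK [6, 14, 20]) (by rcases hv with rfl | rfl <;> exact cm _ _)
  obtain ⟨q', m'⟩ := E.S_ex h2 (inK [6, 0, 16, 24]) (by rcases hv with rfl | rfl <;> exact cm _ _)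
  have mc : (c, ev [10]) ∈ E.S g := ⟨cK, h1⟩
  have m6 := (E.S g).pow_mem m 6
  have m4 := (E.S g).pow_mem m 4
  rw [Prod.pow_mk, show ev [6, 14, 20] ^ 6 = c by
    simpa [pow_succ, mul_assoc, ← ev_c] using eqv [6, 14, 20, 6, 14, 20, 6, 14, 20, 6, 14, 20, 6, 14, 20, 6, 14, 20]
      [10, 10]] at m6
  rw [Prod.pow_mk, show ev [6, 14, 20] ^ 4 = ev [20] by
    simpa [pow_succ, mul_assoc] using eqv [6, 14, 20, 6, 14, 20, 6, 14, 20, 6, 14, 20] [20]] at m4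
  replace m4 := E.S_c m4 ((map_pow ψ q 4).trans (six (E.S_cm m mc (cen _))
    ((map_pow ψ q 6).symm.trans (E.S_eq m6 mc))))
  have my := (E.S g).mul_mem m4 (E.S_n m' m4)
  rw [Prod.mk_mul_mk, mul_one, cj _ _ [6, 0, 16, 24, 20, 25, 17, 1, 7], ml _ _ [20, 6, 0, 16, 24, 20, 25, 17, 1, 7]] at my
  have := E.ti (g := g * F (ev [18]) * g⁻¹) (by
      rw [conj_mul, ← E.mul my.1 my.1, ml _ _ [], ev, evW_nil, E.one]; simp)
    (fun e => nev _ [] (by decide +kernel) (E.inj my.1 K.one_mem ((conj_eq_one_iff.1 e).trans E.one.symm))) my.2 (by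
      rw [conj_mul, ← E.mul (inK _) my.1, (cm _ _).eq, E.mul my.1 (inK _), ← conj_mul, mul_inv_cancel_right]
      exact my.2)
  have := E.Fc h2 (inK [18]) (by simpa [mul_assoc] using this.symm.map (MulAut.conj g⁻¹))
  rcases hv with rfl | rfl <;>
    exact nev (_ ++ [18]) ([18] ++ _) (by decide +kernel) ((evW_append ..).trans (this.eq.trans (evW_append ..).symm))
theorem adj2 (g : G) {k l : P} (hk : k ∈ K) (hl : l ∈ K) :
    (F k)⁻¹ * g * F l * F c * ((F k)⁻¹ * g * F l)⁻¹ = (F k)⁻¹ * (g * F c * g⁻¹) * F k ∧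
      ((F k)⁻¹ * g * F l)⁻¹ * F c * ((F k)⁻¹ * g * F l) = (F l)⁻¹ * (g⁻¹ * F c * g) * F l := by
  constructor
  · rw [mul_assoc _ (F l), (E.aF hl).ct.eq]; group
  · rw [mul_inv_rev, mul_inv_rev, inv_inv, mul_assoc _ _ (F c), mul_assoc _ _ (F c), (E.aF hk).ct.eq]; group
theorem noX {g : G} {q r k l : P} {v : List ℕ} (hv : v = [8] ∨ v = [10]) (h1 : Act F (g * F c * g⁻¹) q)
    (h2 : Act F (g⁻¹ * F c * g) r) (hk : k ∈ K) (hl : l ∈ K) (e : ψ q = ψ (k * ev [10] * k⁻¹))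
    (e' : ψ r = ψ (l * ev v * l⁻¹)) : False := by
  obtain ⟨l, hl, v, hv, e'⟩ : ∃ l ∈ K, ∃ v, (v = [8] ∨ v = [6, 14]) ∧ ψ r = ψ (l * ev v * l⁻¹) := by
    rcases hv with rfl | rfl
    · exact ⟨l, hl, _, .inl rfl, e'⟩
    · exact ⟨l * (ev [25, 12, 20, 13])⁻¹, K.mul_mem hl (K.inv_mem (inK _)), _, .inr rfl, by
        rw [e', ← cj [25, 12, 20, 13] [10] [6, 14]]; simp [mul_assoc]⟩
  exact E.noX0 hv ((E.adj2 g hk hl).1 ▸ E.adj h1 hk e) ((E.adj2 g hk hl).2 ▸ E.adj h2 hl e')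
theorem nc {g : G} {v : List ℕ} (h : Act F (g⁻¹ * F c * g) (ev v)) (e : Commute g (F c))
    (h1 : cmp v [] = false := by decide +kernel) (h2 : cmp v [10, 10] = false := by decide +kernel) : False := by
  rw [mul_assoc, ← e.eq, inv_mul_cancel_left] at h
  exact ψ_ne v h1 h2 ((E.uniq h E.at1).trans (map_one ψ))
theorem ee {g : G} (h1 : Act F (g * F c * g⁻¹) (ev [8])) (h2 : Act F (g⁻¹ * F c * g) (ev [8])) :
    g⁻¹ * F c * g = F (ev [8]) ∧ ∃ k ∈ K, Commute k (ev [8]) ∧ ∃ b, (ev [16], ev [0]) ∈ E.S ((F k)⁻¹ * g) ∧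
      (c, ev [8]) ∈ E.S ((F k)⁻¹ * g) ∧ (ev [6], b) ∈ E.S ((F k)⁻¹ * g) ∧ (ev [8], 1) ∈ E.S ((F k)⁻¹ * g) := by
  obtain ⟨q, m⟩ := E.S_ex h2 (inK [16]) (cm _ _)
  have mc : (c, ev [8]) ∈ E.S g := ⟨cK, h1⟩
  have m5 := (E.S g).pow_mem m 5
  rw [Prod.pow_mk, show ev [16] ^ 5 = 1 by simpa [pow_succ, mul_assoc] using eqv [16, 16, 16, 16, 16] []] at m5
  rcases five' (E.S_cm m mc (cen _)) (by rw [← map_pow, E.S_eq m5 (E.S g).one_mem, map_one]) with
    e | ⟨k, hk, ke, e⟩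
  · obtain ⟨b, mb⟩ := E.S_ex h2 (inK [6]) (cm _ _)
    have n1 := E.S_c m e
    have n2 := E.S_n mb n1
    rw [cj _ _ [6, 16, 7]] at n2
    have := memW (M := (E.S g).comap (MonoidHom.inl P P)) (L := [[16], [6, 16, 7]])
      (List.forall_mem_cons.2 ⟨n1, List.forall_mem_singleton.2 n2⟩) [1, 3, 3, 1, 1, 3, 1, 3, 3, 1, 1, 3]
    rw [show evW N _ = c from ev_c ▸ eqv _ _] at this
    exact (ψ_ne [8] (by decide +kernel) (by decide +kernel) ((E.S_eq mc this).trans (map_one ψ))).elim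
  have e2 : ((F k)⁻¹ * g)⁻¹ * F c * ((F k)⁻¹ * g) = g⁻¹ * F c * g := by
    rw [mul_inv_rev, inv_inv, mul_assoc _ _ (F c), (E.aF hk).ct.eq]; group
  have m0 := E.S_adj m (E.aF hk) e
  have mc' := E.S_adj (u := ev [8]) mc (E.aF hk) (by rw [ke.eq, mul_inv_cancel_right])
  rw [← e2] at h2 ⊢
  generalize hg : (F k)⁻¹ * g = g' at *
  obtain ⟨b, mb⟩ := E.S_ex h2 (inK [6]) (cm _ _)
  obtain ⟨d, md⟩ := E.S_ex h2 (inK [8]) (Commute.refl _)
  have m2 := (E.S g').mul_mem md md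
  rw [Prod.mk_mul_mk, ml _ _ []] at m2
  rcases eighth (E.S_cm md mc' (cen _)) (E.S_cm md m0 (cm _ _))
    (by rw [← map_mul, E.S_eq m2 (E.S g').one_mem, map_one]) with e | e
  swap
  · have ms := (E.S g').mul_mem md mc'
    rw [Prod.mk_mul_mk, ← ev_s] at ms
    obtain ⟨_, -, _, hu, -⟩ := srch goodR s4_wf s4_ok (E.S_cm mb mc' (cen _)) (S_test E.S_eq m0 mc' mb (E.S_c ms (by
      rw [map_mul, e, ← map_mul, ml _ _ []]; exact map_one ψ)) (by decide +kernel))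
    exact absurd hu List.not_mem_nil
  have me := E.S_c md e
  refine ⟨?_, k, hk, ke, b, by rw [hg]; exact ⟨m0, mc', mb, me⟩⟩
  have e8 : F (ev [8]) * F (ev [8]) = 1 := by rw [← E.mul (inK _) (inK _), ml _ _ []]; exact E.one
  by_contra hn
  refine E.nc h2 (E.ti (a := g'⁻¹ * F c * g' * F (ev [8])) ?_ (fun e => hn ?_) ?_ ?_)
  · rw [(h2.cF (inK _) (Commute.refl _)).symm.mul_mul_mul_comm, e8, mul_one]
    simp [mul_assoc, ← mul_assoc (F c), E.tt]
  · exact (eq_inv_of_mul_eq_one_left e).trans (inv_eq_of_mul_eq_one_left e8)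
  · simpa only [ml [8] [8] [], ev, evW_nil] using h2.mul (E.aF (inK [8]))
  · simpa [mul_assoc] using E.at1.mul me.2
theorem sym {g : G} {v y : P} (h : Act F (g⁻¹ * F c * g) v) (hy : y ∈ K) (e : Commute v y) (e' : y * y = c) :
    ∃ q ∈ K, Act F (g * F c * g⁻¹) q := by
  obtain ⟨q, m⟩ := E.S_ex h hy e
  exact ⟨_, sqK q, e' ▸ ((E.S g).mul_mem m m).2⟩
theorem sqc (g : G) : g * F c * g⁻¹ * (g * F c * g⁻¹) = 1 := by rw [conj_mul, E.tt]; simp
theorem clsK {g : G} {q : P} (a : Act F (g * F c * g⁻¹) q) (hq : q ∈ K) (hn : ¬ Commute g (F c)) :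
    ∃ k ∈ K, ∃ u, (u = [8] ∨ u = [10]) ∧ ψ q = ψ (k * ev u * k⁻¹) := by
  obtain ⟨k, hk, u, hu, e⟩ := E.cls a (E.sqc g)
  simp only [s1U, List.mem_cons, List.not_mem_nil, or_false] at hu
  rcases hu with rfl | rfl | rfl | rfl | rfl
  · exact absurd (E.ti E.tt E.t1 E.at1 (a.congr (by simpa using e))) hn
  exacts [⟨k, hk, _, .inl rfl, e⟩, ⟨k, hk, _, .inr rfl, e⟩, absurd (conjK.1 (K_of_ψ e.symm hq)) (niK _),
    absurd (conjK.1 (K_of_ψ e.symm hq)) (niK _)]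
theorem ip0 {g : G} {v : List ℕ} (hv : v = [8] ∨ v = [10]) (h : Act F (g⁻¹ * F c * g) (ev v)) :
    g⁻¹ * F c * g = F (ev [8]) := by
  obtain ⟨q, hq, a⟩ := E.sym h (inK [10]) (by rcases hv with rfl | rfl <;> exact cm _ _) (ev_c ▸ ml _ _ _)
  obtain ⟨k, hk, u, rfl | rfl, e⟩ := E.clsK a hq fun e => by rcases hv with rfl | rfl <;> exact E.nc h e
  swap
  · exact (E.noX hv a h hk K.one_mem e (by simp)).elim
  rcases hv with rfl | rfl
  · have := (E.ee ((E.adj2 g hk K.one_mem).1 ▸ E.adj a hk e)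
      ((E.adj2 g hk K.one_mem).2 ▸ E.adj h K.one_mem (by simp))).1
    rwa [(E.adj2 g hk K.one_mem).2, E.one, inv_one, one_mul, mul_one] at this
  · exact (E.noX (g := g⁻¹) (.inl rfl) (by rwa [inv_inv]) (by rwa [inv_inv]) K.one_mem hk (by simp) e).elim
/-- a conjugate of the involution which acts as an inner automorphism -/
theorem ip {b : G} {r : P} (h : IsConj (F c) b) (a : Act F b r) (hr : r ∈ K) (hn : b ≠ F c) :
    ∃ l ∈ K, b = F (l * ev [8] * l⁻¹) := by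
  obtain ⟨g, rfl⟩ := isConj_iff.1 h
  obtain ⟨l, hl, u, hu, e⟩ := E.clsK a hr fun e => hn (by rw [e.eq, mul_inv_cancel_right])
  have := E.ip0 (g := g⁻¹ * F l) hu (by simpa [mul_assoc] using E.adj a hl e)
  exact ⟨l, hl, by rw [← E.aF hl _ (inK _), ← this]; group⟩
theorem not_s : ¬ IsConj (F c) (F (ev [8, 10, 10])) := fun h => by
  obtain ⟨g, e⟩ := isConj_iff.1 h
  have := E.ip0 (g := g⁻¹) (.inl rfl) (by
    rw [inv_inv, e]; exact (E.aF (inK _)).congr (by rw [ev_s, map_mul, ψ_c, mul_one]))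
  rw [inv_inv, e] at this
  exact nev _ _ (by decide +kernel) (E.inj (inK _) (inK _) this)
theorem cjF {b : G} {a h : P} (e : Act F b a) (hh : h ∈ K) :
    F h * b * (F h)⁻¹ = F (h * (a * h⁻¹ * a⁻¹)) * b := by
  rw [E.mul hh (conjK.2 (K.inv_mem hh)), ← e _ (K.inv_mem hh), E.inv hh]; group
theorem clsO {b : G} {q : P} (a : Act F b q) (h : b * b = 1) (hq : q ∉ K) :
    ∃ k ∈ K, ∃ u, (u = [4] ∨ u = [4, 8]) ∧ Act F ((F k)⁻¹ * b * F k) (ev u) := by
  obtain ⟨k, hk, u, hu, e⟩ := E.cls a h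
  simp only [s1U, List.mem_cons, List.not_mem_nil, or_false] at hu
  rcases hu with rfl | rfl | rfl | rfl | rfl
  exacts [absurd (K_of_ψ e (conjK.2 (inK _))) hq, absurd (K_of_ψ e (conjK.2 (inK _))) hq,
    absurd (K_of_ψ e (conjK.2 (inK _))) hq, ⟨k, hk, _, .inl rfl, E.adj a hk e⟩, ⟨k, hk, _, .inr rfl, E.adj a hk e⟩]
theorem De_in {b : G} {r : P} (h : IsConj (F c) b) (a : Act F b r) (hr : r ∈ K) (hn : b ≠ F c) :
    IsConj (F c) (F (ev [8])) := by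
  obtain ⟨l, hl, e⟩ := E.ip h a hr hn
  exact h.trans (isConj_iff.2 ⟨F l, (E.aF hl _ (inK _)).trans e.symm⟩).symm
theorem De_of {b : G} {a h : List ℕ} (hb : IsConj (F c) b) (e : Act F b (ev a)) (hh : ev h ∈ K)
    (h1 : cmp (h ++ a) ([8] ++ (a ++ h)) = true) (h2 : cmp (a ++ [8]) ([8] ++ a) = true) :
    IsConj (F c) (F (ev [8])) := by
  have e1 := E.cjF e hh
  rw [show ev h * (ev a * (ev h)⁻¹ * (ev a)⁻¹) = ev [8] by
    rw [← mul_assoc, ← mul_assoc, ml _ _ _ h1, ev, evW_append, evW_append]; group] at e1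
  obtain ⟨g, e2⟩ := isConj_iff.1 hb.symm
  have b2 : b * b = 1 := by
    have := E.tt; rwa [← e2, conj_mul, conj_eq_one_iff] at this
  have cb := e.cF (inK [8]) (cm _ _ h2)
  have hd : IsConj (F c) (g * (F (ev [8]) * b) * g⁻¹) :=
    (hb.trans (isConj_iff.2 ⟨_, e1⟩)).trans (isConj_iff.2 ⟨g, rfl⟩)
  obtain ⟨r, ar⟩ := E.act (g := g * (F (ev [8]) * b) * g⁻¹)
    (e2 ▸ (cb.symm.mul_left (Commute.refl b)).map (MulAut.conj g))
  by_cases hr : r ∈ K
  · refine E.De_in hd ar hr fun e => nev [8] [] (by decide +kernel) (E.inj (inK _) K.one_mem ?_)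
    rw [← e2, mul_left_inj, mul_right_inj, mul_eq_right] at e
    exact e.trans E.one.symm
  obtain ⟨g', e3⟩ := isConj_iff.1 hd
  obtain ⟨k, hk, u, hu, au⟩ := E.clsO ar (e3 ▸ E.sqc g') hr
  have e4 := E.cjF au (inK [10])
  rw [show ev [10] * (ev u * (ev [10])⁻¹ * (ev u)⁻¹) = c by
    rw [← mul_assoc, ← mul_assoc, cj _ _ (u ++ [10, 10]) (by rcases hu with rfl | rfl <;> decide +kernel), ← ev_mc,
      (cen _).eq, mul_inv_cancel_right]] at e4
  refine (hd.trans (isConj_iff.2 ⟨g⁻¹ * F k * F (ev [10]) * (F k)⁻¹, ?_⟩))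
  calc _ = g⁻¹ * (F k * (F (ev [10]) * ((F k)⁻¹ * (g * (F (ev [8]) * b) * g⁻¹) * F k) * (F (ev [10]))⁻¹) *
      (F k)⁻¹) * g := by group
    _ = b * b * F (ev [8]) := by rw [e4, ← mul_assoc (F k), (E.aF hk).ct.eq, ← e2, ← cb.eq]; group
    _ = _ := by rw [b2, one_mul]
theorem De {g : G} (h : Commute (g * F c * g⁻¹) (F c)) (hn : g * F c * g⁻¹ ≠ F c) : IsConj (F c) (F (ev [8])) := by
  obtain ⟨r, a⟩ := E.act h
  have hd : IsConj (F c) _ := isConj_iff.2 ⟨g, rfl⟩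
  by_cases hr : r ∈ K
  · exact E.De_in hd a hr hn
  obtain ⟨k, hk, u, hu, au⟩ := E.clsO a (E.sqc g) hr
  have : ∀ w, IsConj (F c) (F w * ((F k)⁻¹ * (g * F c * g⁻¹) * F k) * (F w)⁻¹) := fun w =>
    isConj_iff.2 ⟨F w * (F k)⁻¹ * g, by group⟩
  rcases hu with rfl | rfl
  · exact E.De_of (a := [28]) (h := [6]) (this _) (cj [30, 4] [4] [28] ▸ ((E.aF (inK _)).mul au).mul (E.aF (inK _)).inv)
      (inK _) (by decide +kernel) (by decide +kernel)
  · exact E.De_of (a := [4, 6]) (h := [18]) (this _)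
      (cj [18] [4, 8] [4, 6] ▸ ((E.aF (inK _)).mul au).mul (E.aF (inK _)).inv)
      (inK _) (by decide +kernel) (by decide +kernel)
/-- the normal form of an element interchanging `c` and `e` -/
theorem swap (h : IsConj (F c) (F (ev [8]))) : ∃ g b, (b = [4] ∨ b = [4, 8]) ∧ g * F c * g⁻¹ = F (ev [8]) ∧
    g * F (ev [8]) * g⁻¹ = F c ∧ Act F (g * F (ev [16]) * g⁻¹) (ev [0]) ∧ Act F (g * F (ev [6]) * g⁻¹) (ev b) := by
  obtain ⟨g, e⟩ := isConj_iff.1 h.symm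
  have e1 : g⁻¹ * F c * g = F (ev [8]) := by rw [← e]; group
  have a1 : Act F (g⁻¹ * F c * g) (ev [8]) := e1 ▸ E.aF (inK _)
  obtain ⟨q, hq, a⟩ := E.sym a1 (inK [10]) (cm _ _) (ev_c ▸ ml _ _ _)
  obtain ⟨l, hl, e2⟩ := E.ip (isConj_iff.2 ⟨g, rfl⟩) a hq fun e => E.nc a1 (mul_inv_eq_iff_eq_mul.1 e)
  have key : ∀ {g o : G} {k : P}, Act F o k → g * F c * g⁻¹ = F (k * ev [8] * k⁻¹) → g * F (ev [8]) * g⁻¹ = F c →
      o⁻¹ * g * F c * (o⁻¹ * g)⁻¹ = F (ev [8]) ∧ o⁻¹ * g * F (ev [8]) * (o⁻¹ * g)⁻¹ = F c := fun {g o k} a b d => by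
    have e : ∀ y, o⁻¹ * g * y * (o⁻¹ * g)⁻¹ = o⁻¹ * (g * y * g⁻¹) * o := fun y => by group
    exact ⟨by rw [e, b, ← a _ (inK _)]; group, by rw [e, d, mul_assoc, ← a.ct.eq, inv_mul_cancel_left]⟩
  obtain ⟨b1, b2⟩ := key (E.aF hl) e2 e
  generalize (F l)⁻¹ * g = g at b1 b2
  obtain ⟨-, k, hk, ke, b, m0, mc, mb, me⟩ := E.ee (b1 ▸ E.aF (inK _)) (by
    rw [← b2]; simpa [mul_assoc] using E.aF (inK [8]))
  obtain ⟨b1, b2⟩ := key (E.aF hk) (by rwa [ke.eq, mul_inv_cancel_right]) b2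
  generalize (F k)⁻¹ * g = g at b1 b2 m0 mc mb me
  obtain ⟨k, hk, u, hu, e⟩ := srch goodR s3_wf s3_ok (E.S_cm mb mc (cen _))
    (S_test E.S_eq m0 mc mb me (by decide +kernel))
  have hu' := List.mem_pair.1 hu
  obtain ⟨o, ao⟩ : ∃ o, Act F o k := by
    by_cases hk : k ∈ K
    · exact ⟨_, E.aF hk⟩
    · refine ⟨_, mul_inv_cancel_left b k ▸ mb.2.mul (E.aF (mulK (fun a => ?_) hk))⟩
      exact absurd (conjK.1 (K_of_ψ e.symm (inv_mem_iff.1 a))) (by rcases hu' with rfl | rfl <;> exact niK _)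
  obtain ⟨b1, b2⟩ := key ao (by rwa [(genA hk).1.eq, mul_inv_cancel_right]) b2
  exact ⟨_, u, hu', b1, b2, (E.S_adj (u := ev [0]) m0 ao (by rw [(genA hk).2.eq, mul_inv_cancel_right])).2, (E.S_adj mb ao e).2⟩
end St
end H54.HNT
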