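import Cfsg.Agent.Lib.HNT.RecT
/-! The twisted fusion pattern does not occur, also if the centraliser of 2.HS contains an element of order 4 -/
set_option autoImplicit false
set_option maxRecDepth 100000
set_option maxHeartbeats 800000
namespace H54.HNT
open Cfsg.Spor H15.Mdl H54.HN H16 Cfsg MulAction
theorem tw' {X : Type*} [Group X] [Finite X] {c v u ρ : X} (c2 : c * c = 1) (c1 : c ≠ 1) (u2 : u * u = 1)
    (cv : Commute c v) (r1 : ρ * c * ρ⁻¹ = v) (r2 : ρ * v * ρ⁻¹ = c * v)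
    (hb : ∀ x, Commute x c → (Commute x v ∨ x * v * x⁻¹ = c * v) ∧ x ^ 16 = 1)
    (ha : ∀ x, Commute (x * c * x⁻¹) c → x * c * x⁻¹ = c ∨ x * c * x⁻¹ = v ∨ x * c * x⁻¹ = c * v)
    {Z : X → Prop} (hZ : ∀ a, Z a → Z (c * a))
    (hd : ∀ a, Z a → Commute a c ∧ Commute a v ∧ ∃ d, (d = c ∨ d = v ∨ d = c * v) ∧ ∀ b, Commute b a →
      (b * d * b⁻¹ = c ∨ b * d * b⁻¹ = v ∨ b * d * b⁻¹ = c * v) → b * d * b⁻¹ = d)
    (hf : ∀ x, Commute (x * u * x⁻¹) c → Commute (x * u * x⁻¹) v → Z (x * u * x⁻¹)) (uc : Commute u c)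
    (uv : Commute u v) (hg : ¬ IsConj c u) (y : X) : Commute (y * c * y⁻¹) c := by
  have v2 : v * v = 1 := by rw [← r1, conj_mul, c2]; simp
  have r3 : ρ * (c * v) * ρ⁻¹ = c := by rw [← conj_mul, r1, r2, cv.eq, ← mul_assoc, v2, one_mul]
  obtain ⟨E, hE⟩ : ∃ E : X → Prop, ∀ {d}, E d ↔ d = c ∨ d = v ∨ d = c * v := ⟨_, Iff.rfl⟩
  simp only [← hE] at ha hd
  have E1 : E c := hE.2 (.inl rfl)
  have E2 : E v := hE.2 (.inr (.inl rfl))
  have E3 : E (c * v) := hE.2 (.inr (.inr rfl))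
  obtain ⟨M, hM⟩ : ∃ M : X → Prop, ∀ {x}, M x ↔ ∀ e, E e → E (x * e * x⁻¹) := ⟨_, Iff.rfl⟩
  have Mm : ∀ {x y}, M x → M y → M (x * y) := fun {x y} a b => hM.2 fun e he => by
    simpa only [mul_inv_rev, mul_assoc] using hM.1 a _ (hM.1 b e he)
  have M1 : M 1 := hM.2 fun e he => by simpa using he
  have Mρ : M ρ := hM.2 fun e he => by
    rcases hE.1 he with rfl | rfl | rfl
    exacts [r1 ▸ E2, r2 ▸ E3, r3.symm ▸ E1]
  have Mρ' : M ρ⁻¹ := hM.2 fun e he => by
    have a : ∀ {d d'}, ρ * d * ρ⁻¹ = d' → E d → E (ρ⁻¹ * d' * ρ⁻¹⁻¹) := fun a b => by simpa [← a, mul_assoc] using b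
    rcases hE.1 he with rfl | rfl | rfl
    exacts [a r3 E3, a r1 E1, a r2 E2]
  have hk : ∀ {d}, E d → ∃ k, k * c * k⁻¹ = d ∧ M k ∧ M k⁻¹ := fun h => by
    rcases hE.1 h with rfl | rfl | rfl
    exacts [⟨1, by simp, M1, by rwa [inv_one]⟩, ⟨ρ, r1, Mρ, Mρ'⟩,
      ⟨ρ * ρ, by rw [← r2, ← r1]; group, Mm Mρ Mρ, mul_inv_rev ρ ρ ▸ Mm Mρ' Mρ'⟩]
  have cj : ∀ {k x y : X}, Commute x (k * y * k⁻¹) → Commute (k⁻¹ * x * k) y := fun {k x y} h => by
    simpa [mul_assoc] using h.map (MulAut.conj k⁻¹)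
  have p16 : ∀ {k x : X}, (k⁻¹ * x * k) ^ 16 = 1 → x ^ 16 = 1 := fun {k x} h => by
    rwa [← inv_inv k, inv_inv k⁻¹, conj_pow, conj_eq_one_iff] at h
  have h16 : ∀ {x d}, E d → Commute x d → x ^ 16 = 1 := fun {x d} h e => by
    obtain ⟨k, rfl, -⟩ := hk h
    exact p16 (hb _ (cj e)).2
  have ha' : ∀ {x d}, E d → Commute (x * c * x⁻¹) d → E (x * c * x⁻¹) := fun {x d} h e => by
    obtain ⟨k, rfl, m, -⟩ := hk h
    simpa [mul_assoc] using hM.1 m _ (ha (k⁻¹ * x) (by simpa [mul_assoc] using cj e))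
  have od : ∀ {B : Subgroup X} {o : B}, o ∈ oddCore B → (o : X) ^ 16 = 1 → o = 1 := fun {B o} ho e =>
    orderOf_eq_one_iff.1 (Nat.eq_one_of_dvd_coprimes (Nat.Coprime.pow_right 4
      (Nat.coprime_two_right.2 (H1.odd_card_oddCore.of_dvd_nat (Subgroup.orderOf_dvd_natCard _ ho))))
      dvd_rfl (orderOf_dvd_of_pow_eq_one (Subtype.ext e)))
  have zs : ∀ {a d}, E d → Commute d a → oddCore (Subgroup.centralizer ({a} : Set X)) = ⊥ →
      (∀ b, Commute b a → E (b * d * b⁻¹) → b * d * b⁻¹ = d) → ∀ b, Commute b a → Commute b d :=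
      fun {a d} d1 da hO d2 b hb' => by
    obtain ⟨k, ek, -⟩ := hk d1
    have := H73.centralizer_sup_oddCore_eq_top' (u := (⟨d, Subgroup.mem_centralizer_singleton_iff.2 da⟩ :
      Subgroup.centralizer ({a} : Set X))) (H9.orderOf_eq_two_of_mul_self
      (fun e => c1 (conj_eq_one_iff.1 (ek.trans (congrArg Subtype.val e))))
      (Subtype.ext (show d * d = 1 by rw [← ek, conj_mul, c2]; simp))) fun g hg => Subtype.ext (by
        have e : (g : X) * d * (g : X)⁻¹ = g * k * c * (g * k)⁻¹ := by rw [← ek]; group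
        refine d2 g (Subgroup.mem_centralizer_singleton_iff.1 g.2) (e ▸ ha' d1 (e ▸ ?_))
        exact congrArg Subtype.val hg.eq)
    rw [hO, sup_bot_eq] at this
    exact congrArg Subtype.val (Subgroup.mem_centralizer_singleton_iff.1
      (this.ge (Subgroup.mem_top (⟨b, Subgroup.mem_centralizer_singleton_iff.2 hb'.eq⟩ :
        Subgroup.centralizer ({a} : Set X)))))
  have key : ∀ a, Z a → ∃ d, E d ∧ ∀ b, Commute b a → Commute b d := fun a za => by
    obtain ⟨a1, a2, d, d1, d2⟩ := hd a za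
    refine ⟨d, d1, zs d1 (by
      rcases hE.1 d1 with rfl | rfl | rfl
      exacts [a1.symm, a2.symm, (a1.mul_right a2).symm]) (H63.P43.odd_trivial H1.odd_card_oddCore
        (a := ⟨c, Subgroup.mem_centralizer_singleton_iff.2 a1.symm⟩)
        (b := ⟨v, Subgroup.mem_centralizer_singleton_iff.2 a2.symm⟩) (Subtype.ext c2) (Subtype.ext v2)
        fun e he o ho oe => od ho (h16 (d := e) (hE.2 (by simpa [Subtype.ext_iff] using he))
          (congrArg Subtype.val oe))) d2⟩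
  have key2 : ∀ x, Commute (x * u * x⁻¹) c → ¬ Commute (x * u * x⁻¹) v → ∀ b, Commute b (x * u * x⁻¹) →
      Commute b c := fun x a1 a2 => by
    obtain ⟨d, d1, d2⟩ := key _ (hf 1 (by simpa using uc) (by simpa using uv))
    refine zs E1 a1.symm (eq_bot_iff.2 fun o ho => od ho ?_) fun b hb' e => ?_
    · exact p16 (h16 d1 (d2 _ (by simpa using cj (Subgroup.mem_centralizer_singleton_iff.1 o.2))))
    · have := ((hb'.mul_left a1.symm).mul_left hb'.inv_left).symm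
      rcases hE.1 e with e | e | e <;> rw [e] at this
      exacts [e, absurd this a2, absurd (by simpa using a1.inv_right.mul_right this) a2]
  have uN : ∀ x, ∃ d, E d ∧ Commute (x * u * x⁻¹) d := fun x => by
    rcases H63.P43.dihedral (K := ⊤) (s := c) (u := x * u * x⁻¹) trivial trivial c2
      (by rw [conj_mul, u2]; simp) with ⟨k, -, e⟩ | ⟨a, -, a2, a1, a3, a4, g, e | e⟩
    · exact absurd ((isConj_iff.2 ⟨k, e⟩).trans (isConj_iff.2 ⟨x, rfl⟩).symm) hg
    · have h := ha g (e ▸ (Commute.refl c).mul_left a3)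
      rw [e] at h
      refine ⟨a, hE.2 ?_, Commute.symm a4⟩
      rcases hE.1 h with h | h | h
      · exact absurd (mul_eq_left.1 h) a1
      · exact .inr (.inr (by rw [← h, ← mul_assoc, c2, one_mul]))
      · exact .inr (.inl (mul_left_cancel h))
    have e' : g * x * u * (g * x)⁻¹ = c * a := by rw [← e]; group
    have b1 : Commute (c * a) c := (Commute.refl c).mul_left a3
    by_cases b2 : Commute (c * a) v
    · have := hZ _ (e' ▸ hf _ (e' ▸ b1) (e' ▸ b2))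
      rw [← mul_assoc, c2, one_mul] at this
      obtain ⟨d, d1, d2⟩ := key a this
      exact ⟨d, d1, d2 _ (Commute.symm a4)⟩
    have e'' : v⁻¹ * (g * x) * u * (v⁻¹ * (g * x))⁻¹ = a := by
      calc _ = v⁻¹ * (g * x * u * (g * x)⁻¹ * v * (g * x * u * (g * x)⁻¹)⁻¹) * (g * x * u * (g * x)⁻¹) := by group
        _ = _ := by
          rw [e', ((hb _ b1).1).resolve_left b2, cv.eq, inv_mul_cancel_left, ← mul_assoc, c2, one_mul]
    exact ⟨c, E1, key2 _ (e'' ▸ a3) (e'' ▸ fun h => b2 (cv.mul_left h)) _ (e'' ▸ Commute.symm a4)⟩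
  obtain ⟨d, d1, d2⟩ := uN y
  obtain ⟨k, rfl, m, -⟩ := hk d1
  have e : ∀ z, k⁻¹ * (y * z * y⁻¹) * k = k⁻¹ * y * z * (k⁻¹ * y)⁻¹ := fun z => by group
  have a1 := e u ▸ cj d2
  have a2 : Commute (k⁻¹ * y * c * (k⁻¹ * y)⁻¹) (k⁻¹ * y * u * (k⁻¹ * y)⁻¹) := uc.symm.map (MulAut.conj _)
  obtain ⟨d, d1, d2⟩ : ∃ d, E d ∧ Commute (k⁻¹ * y * c * (k⁻¹ * y)⁻¹) d := by
    by_cases b : Commute (k⁻¹ * y * u * (k⁻¹ * y)⁻¹) v
    · obtain ⟨d, d1, d2⟩ := key _ (hf _ a1 b)
      exact ⟨d, d1, d2 _ a2⟩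
    · exact ⟨c, E1, key2 _ a1 b _ a2⟩
  have := hM.1 m _ (ha' d1 d2)
  rw [← e, show ∀ z, k * (k⁻¹ * z * k) * k⁻¹ = z from fun z => by group] at this
  rcases hE.1 this with e | e | e <;> rw [e]
  exacts [cv.symm, (Commute.refl c).mul_left cv.symm]
/-- an element of order 4 of the centraliser of 2.HS -/
def Kp {G : Type*} [Group G] (j : P →* G) (κ : G) : Prop :=
  κ * κ = j c ∧ (∀ y ∈ K, Commute κ (j y)) ∧ κ * j (ev [4]) * κ⁻¹ = j (ev [4] * c)
theorem Kp.out {G : Type*} [Group G] {j : P →* G} {κ : G} (h : Kp j κ) {q : P} (hq : q ∉ K) :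
    κ * j q * κ⁻¹ = j (q * c) := by
  rw [← inv_mul_cancel_right q (ev [4]), map_mul, ← conj_mul, h.2.2,
    (h.2.1 _ (mulK hq (mt inv_mem_iff.1 (niK [4])))).eq, mul_inv_cancel_right, ← map_mul, ← mul_assoc]
theorem Kp.nrm {G : Type*} [Group G] {j : P →* G} {κ : G} (h : Kp j κ) (q : P) : ∃ r, j r = κ * j q * κ⁻¹ := by
  by_cases hq : q ∈ K
  exacts [⟨q, by rw [(h.2.1 q hq).eq, mul_inv_cancel_right]⟩, ⟨_, (h.out hq).symm⟩]
theorem twist' {G : Type*} [Group G] [Finite G] {j : P →* G} (inj : Function.Injective j)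
    (rng : ∀ g, Commute g (j c) → ∃ q κ, j q * κ = g ∧ (κ = 1 ∨ Kp j κ))
    (hT : ∀ g, Commute (g * j c * g⁻¹) (j c) → ∃ q, j q = g * j c * g⁻¹) (De : IsConj (j c) (j (ev [8])))
    (Dw : IsConj (j c) (j (ev [4, 8]))) (Ss : ¬ IsConj (j c) (j (ev [8, 10, 10])))
    (Sz : ¬ IsConj (j c) (j (ev [4]))) {g : G} (g1 : g * j c * g⁻¹ = j (ev [8]))
    (g2 : g * j (ev [8, 10, 10]) * g⁻¹ = j (ev [4, 10, 10])) (g3 : g * j (ev [20]) * g⁻¹ = j (ev [20]))
    {v : List ℕ} (hv : v = [4, 6] ∨ v = [4, 6, 10, 10]) (g4 : g * j (ev v) * g⁻¹ = j (ev [6])) : False := by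
  let L := Subgroup.centralizer ({j (ev [8, 10, 10]), j (ev [20])} : Set G)
  have mL : ∀ {x}, x ∈ L ↔ Commute x (j (ev [8, 10, 10])) ∧ Commute x (j (ev [20])) := by
    simp [L, Subgroup.mem_centralizer_iff, commute_iff_eq, eq_comm]
  have m1 : ∀ w, cmp (w ++ [8, 10, 10]) ([8, 10, 10] ++ w) = true → cmp (w ++ [20]) ([20] ++ w) = true →
      j (ev w) ∈ L := fun w a b => mL.2 ⟨(cm _ _ a).map j, (cm _ _ b).map j⟩
  have cj0 : ∀ {x y : G}, Commute x (g * y * g⁻¹) → Commute (g⁻¹ * x * g) y := fun {x y} h => by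
    simpa [mul_assoc] using h.map (MulAut.conj g⁻¹)
  have m2 : ∀ w, cmp (w ++ [4, 10, 10]) ([4, 10, 10] ++ w) = true → cmp (w ++ [20]) ([20] ++ w) = true →
      g⁻¹ * j (ev w) * g ∈ L := fun w a b => mL.2 ⟨cj0 (g2 ▸ (cm _ _ a).map j), cj0 (by rw [g3]; exact (cm _ _ b).map j)⟩
  obtain ⟨s, es⟩ : ∃ s : L, s = j (ev [8, 10, 10]) := ⟨⟨_, m1 _ (by decide +kernel) (by decide +kernel)⟩, rfl⟩
  obtain ⟨r, er⟩ : ∃ r : L, r = j (ev [20]) := ⟨⟨_, m1 _ (by decide +kernel) (by decide +kernel)⟩, rfl⟩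
  obtain ⟨C, eC⟩ : ∃ r : L, r = j c := ⟨⟨_, m1 [10, 10] (by decide +kernel) (by decide +kernel)⟩, congrArg j ev_c⟩
  obtain ⟨U, eU⟩ : ∃ r : L, r = j (ev [28]) := ⟨⟨_, m1 _ (by decide +kernel) (by decide +kernel)⟩, rfl⟩
  obtain ⟨W, eW⟩ : ∃ r : L, r = j (ev [4, 6]) := ⟨⟨_, m1 _ (by decide +kernel) (by decide +kernel)⟩, rfl⟩
  obtain ⟨ρ, eρ⟩ : ∃ r : L, r = g⁻¹ * j (ev [18]) * g := ⟨⟨_, m2 _ (by decide +kernel) (by decide +kernel)⟩, rfl⟩
  obtain ⟨Y, eY⟩ : ∃ r : L, r = g⁻¹ * j (ev [32]) * g := ⟨⟨_, m2 _ (by decide +kernel) (by decide +kernel)⟩, rfl⟩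
  obtain ⟨V, eV, hV⟩ : ∃ r : L, r = j (ev v) ∧ (r = W ∨ r = W * C) := by
    rcases hv with rfl | rfl
    · exact ⟨W, eW, .inl rfl⟩
    · exact ⟨W * C, by rw [Subgroup.coe_mul, eW, eC, ← map_mul, ev_mc]; rfl, .inr rfl⟩
  have sc : ∀ x : L, Commute x s := fun x => Subtype.ext (es ▸ (mL.1 x.2).1.eq :)
  have rc : ∀ x : L, Commute x r := fun x => Subtype.ext (er ▸ (mL.1 x.2).2.eq :)
  have s2 : s * s = 1 := Subtype.ext (by rw [Subgroup.coe_mul, es, ← map_mul, ml _ _ []]; exact map_one j)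
  have r3 : r * (r * r) = 1 := Subtype.ext (by
    rw [Subgroup.coe_mul, Subgroup.coe_mul, er, ← map_mul, ← map_mul, ml _ _ [20, 20], ml _ _ []]; exact map_one j)
  have C2 : C * C = 1 := Subtype.ext (by rw [Subgroup.coe_mul, eC, ← map_mul, c_sq]; exact map_one j)
  have U2 : U * U = 1 := Subtype.ext (by rw [Subgroup.coe_mul, eU, ← map_mul, ml _ _ []]; exact map_one j)
  have W2 : W * W = 1 := Subtype.ext (by rw [Subgroup.coe_mul, eW, ← map_mul, ml _ _ []]; exact map_one j)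
  have s1 : s ≠ 1 := fun e => nev [8, 10, 10] [] (by decide +kernel) (inj (es.symm.trans
    ((congrArg Subtype.val e).trans (map_one j).symm)))
  have Cq : ∀ {x : L} {q}, x = j q → Commute x C := fun {x q} e => Subtype.ext (by
    rw [Subgroup.coe_mul, Subgroup.coe_mul, e, eC]; exact ((cen q).map j).eq)
  have Cs : (C * s : L) = j (ev [8]) := by rw [Subgroup.coe_mul, es, eC, ← map_mul, ← ev_c, ml _ _ [8]]
  have UW : U * W * U⁻¹ = W * s := Subtype.ext (by
    simp only [Subgroup.coe_mul, Subgroup.coe_inv, eU, eW, es, ← map_inv, ← map_mul]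
    rw [cj _ _ [4, 6, 8, 10, 10], ml _ _ [4, 6, 8, 10, 10]])
  have ρ1 : ρ * C * ρ⁻¹ = V := Subtype.ext (by
    have := congrArg j (cj [18] [8] [6])
    rw [map_mul, map_mul, map_inv, ← g1, ← g4] at this
    simp only [Subgroup.coe_mul, Subgroup.coe_inv, eρ, eC, eV]
    rw [← mul_left_inj g⁻¹, ← mul_right_inj g, ← mul_assoc g (j _), ← this]; group)
  have ρ2 : ρ * V * ρ⁻¹ = C * V := Subtype.ext (by
    have := congrArg j ((cj [18] [6] [8, 6]).trans (ml [8] [6] _).symm)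
    rw [map_mul, map_mul, map_mul, map_inv, ← g1, ← g4, conj_mul] at this
    simp only [Subgroup.coe_mul, Subgroup.coe_inv, eρ, eC, eV]
    rw [← mul_left_inj g⁻¹, ← mul_right_inj g, ← mul_assoc g (j _ * _), ← this]; group)
  have zc : ∀ a ∈ Subgroup.zpowers (s * r), ∀ x, Commute x a := by
    rintro _ ⟨k, rfl⟩ x; exact ((sc x).mul_right (rc x)).zpow_right k
  have : (Subgroup.zpowers (s * r)).Normal := ⟨fun a ha x => by rwa [(zc a ha x).eq, mul_inv_cancel_right]⟩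
  let π := QuotientGroup.mk' (Subgroup.zpowers (s * r))
  have sr : (s * r) ^ 3 = s := by
    rw [(rc s).mul_pow, pow_three, pow_three, s2, r3, mul_one, mul_one]
  have πs : π s = 1 := (QuotientGroup.eq_one_iff _).2 (by
    have := pow_mem (Subgroup.mem_zpowers (s * r)) 3; rwa [sr] at this)
  have πr : π r = 1 := by
    have : π (s * r) = 1 := (QuotientGroup.eq_one_iff _).2 (Subgroup.mem_zpowers _)
    rwa [map_mul, πs, one_mul] at this
  have cl : ∀ {a b}, π a = π b → ∃ k : ℤ, a = b * (s * r) ^ k := fun {a b} h => by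
    obtain ⟨k, e⟩ := QuotientGroup.eq.1 h.symm
    exact ⟨k, by rw [show (s * r) ^ k = _ from e, mul_inv_cancel_left]⟩
  have lf : ∀ {a b}, a * a = 1 → b * b = 1 → π a = π b → a = b ∨ a = b * s := fun {a b} a2 b2 h => by
    obtain ⟨k, rfl⟩ := cl h
    have e : ((s * r) ^ k) ^ 2 = 1 := by
      rwa [mul_assoc, ← mul_assoc _ b, ← (zc _ ⟨k, rfl⟩ b).eq, mul_assoc, ← mul_assoc b b, b2, one_mul, ← pow_two] at a2
    have e' : (s * r) ^ k = s ^ k := by
      rw [← mul_one (_ ^ k), ← e, ← pow_succ', ← zpow_natCast, ← zpow_mul, mul_comm k, zpow_mul, zpow_natCast, sr]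
    have : s ^ (2 : ℤ) = 1 := by rw [zpow_two, s2]
    rw [e']
    rcases Int.even_or_odd' k with ⟨i, rfl | rfl⟩ <;> simp only [zpow_add, zpow_mul, this] <;> simp
  have cq : ∀ x a : L, a * a = 1 → x * a * x⁻¹ * (x * a * x⁻¹) = 1 := fun x a h => by rw [conj_mul, h]; simp
  have lc : ∀ {x a : L}, a * a = 1 → Commute (π x) (π a) → Commute x a ∨ x * a * x⁻¹ = a * s := fun {x a} h e =>
    (lf (cq x a h) h (by rw [map_mul, map_mul, e.eq, map_inv, mul_inv_cancel_right])).imp_left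
      mul_inv_eq_iff_eq_mul.1
  have base : ∀ x : L, (∃ q, j q = x) → ∃ w ∈ U96, (x : G) = j (ev w) := fun x ⟨q, e⟩ => by
    have a := mL.1 x.2
    rw [← e] at a
    obtain ⟨w, hw, e'⟩ := seventh (q := q) (ml [8, 10, 10] [10, 10] [8] ▸
      Commute.mul_right (inj (by simpa only [map_mul] using a.1.eq)) (ev_c ▸ cen q))
      (inj (by simpa only [map_mul] using a.2.eq))
    exact ⟨w, hw, by rw [← e, e']⟩
  have chk := fun w hw => (allL_iff _ _).1 chk96 w hw
  simp only [band_eq_true, bor_eq_true, bimp_eq_true, anyL_iff, cmp_iff, evW_append] at chk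
  have WV : ∀ {x}, Commute x (π C) → (Commute x (π V) ↔ Commute x (π W)) := fun {x} h => by
    rcases hV with rfl | rfl
    exacts [Iff.rfl, ⟨fun a => by simpa using a.mul_right h.inv_right, fun a => map_mul π W C ▸ a.mul_right h⟩]
  have b0 : ∀ x : L, (∃ q, j q = x) → Commute (π x) (π V) ∧ π x ^ 4 = 1 := fun x h => by
    obtain ⟨w, hw, e⟩ := base x h
    obtain ⟨h1, ⟨a, ha, h2⟩, -⟩ := chk w hw
    refine ⟨(WV ((Cq e).map π)).2 ?_, ?_⟩
    · rcases h1 with h1 | h1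
      · exact Commute.map (f := π) (Subtype.ext (by simp only [Subgroup.coe_mul, e, eW, ← map_mul, h1])) 
      · have : x * W = W * s * x := Subtype.ext (by
          simp only [Subgroup.coe_mul, e, eW, es, ← map_mul, h1, ml [4, 6] [8, 10, 10] [4, 6, 8, 10, 10]])
        rw [commute_iff_eq, ← map_mul, this, map_mul, map_mul, πs, mul_one]
    · have : x ^ 4 = 1 ∨ x ^ 4 = r ∨ x ^ 4 = r * r := by
        simp only [List.mem_cons, List.not_mem_nil, or_false] at ha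
        simp only [Subtype.ext_iff, Subgroup.coe_pow, Subgroup.coe_mul, Subgroup.coe_one, e, er, ← map_pow, ← map_mul,
          show ev w ^ 4 = ev a by rw [← h2]; simp only [pow_succ, pow_zero, one_mul, mul_assoc]]
        rcases ha with rfl | rfl | rfl
        exacts [.inl (map_one j), .inr (.inl rfl), .inr (.inr (by rw [ml _ _ [20, 20]]))]
      rcases this with e | e | e <;> simp [← map_pow, e, πr]
  have CV : Commute C V := (Cq eV).symm
  have V2 : V * V = 1 := ρ1 ▸ cq ρ C C2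
  have UV : U * V * U⁻¹ = V * s := by
    rcases hV with rfl | rfl
    · exact UW
    · rw [← conj_mul, UW, (Cq eU).eq, mul_inv_cancel_right, mul_assoc, ← (sc C).eq, mul_assoc]
  have C1 : π C ≠ 1 := fun e => by
    rcases lf C2 (mul_one 1) (e.trans (map_one π).symm) with e | e
    · exact sq_ne (inj (eC.symm.trans ((congrArg Subtype.val e).trans (map_one j).symm)))
    · exact Ss (by rw [← es, ← eC, e, one_mul])
  have b1 : ∀ x : L, Commute x C → ((∃ q, j q = x) ∨ π x * π V * (π x)⁻¹ = π C * π V) ∧ π x ^ 8 = 1 := fun x h => by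
    obtain ⟨q, κ, e, rfl | hκ⟩ := rng x (by rw [← eC]; exact congrArg Subtype.val h.eq)
    · rw [mul_one] at e
      exact ⟨.inl ⟨q, e⟩, by rw [show 8 = 4 * 2 from rfl, pow_mul, (b0 x ⟨q, e⟩).2, one_pow]⟩
    obtain ⟨k, ek⟩ : ∃ k : L, k = κ := ⟨⟨κ, mL.2 ⟨hκ.2.1 _ (inK _), hκ.2.1 _ (inK _)⟩⟩, rfl⟩
    have e1 : j q = (x * k⁻¹ : L) := by rw [Subgroup.coe_mul, Subgroup.coe_inv, ← e, ek, mul_inv_cancel_right]
    have e2 : k * V * k⁻¹ = C * V := Subtype.ext (by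
      simp only [Subgroup.coe_mul, Subgroup.coe_inv, ek, eC, eV]
      rw [hκ.out (by rcases hv with rfl | rfl <;> exact niK _), (cen _).eq, map_mul])
    refine ⟨.inr ?_, ?_⟩
    · rw [← inv_mul_cancel_right x k, map_mul π _ k, mul_inv_rev, mul_assoc, mul_assoc, ← mul_assoc (π V),
        ← mul_assoc (π k), ← mul_assoc (π k), ← map_inv, ← map_mul π k, ← map_mul π (k * V), e2, map_mul π C, ← mul_assoc,
        (((Cq e1.symm).map π).mul_right (b0 _ ⟨q, e1⟩).1).eq, mul_inv_cancel_right]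
    · rw [show 8 = 2 * 4 from rfl, pow_mul, pow_two, ← map_mul]
      obtain ⟨r, er⟩ := hκ.nrm q
      exact (b0 _ ⟨q * r * c, by
        rw [Subgroup.coe_mul, ← e, map_mul, map_mul, er, ← hκ.1]; group⟩).2
  have b2 : ∀ x : L, Commute x C → (Commute (π x) (π V) ∨ π x * π V * (π x)⁻¹ = π C * π V) := fun x h =>
    (b1 x h).1.imp_left fun h => (b0 x h).1
  have hb : ∀ x, Commute x (π C) → (Commute x (π V) ∨ x * π V * x⁻¹ = π C * π V) ∧ x ^ 16 = 1 := fun x h => by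
    obtain ⟨x, rfl⟩ := QuotientGroup.mk'_surjective _ x
    rcases lc C2 h with h | h
    · exact ⟨b2 x h, by rw [show 16 = 8 * 2 from rfl, pow_mul, (b1 x h).2, one_pow]⟩
    have a1 : ρ⁻¹ * U * ρ * C * (ρ⁻¹ * U * ρ)⁻¹ = C * s := by
      calc _ = ρ⁻¹ * (U * (ρ * C * ρ⁻¹) * U⁻¹) * ρ := by group
        _ = ρ⁻¹ * (ρ * C * ρ⁻¹ * s) * ρ := by rw [ρ1, UV]
        _ = _ := by rw [mul_assoc (ρ * C), (sc _).eq]; group
    have a2 : π (ρ⁻¹ * U * ρ * V * (ρ⁻¹ * U * ρ)⁻¹) = π V := by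
      calc _ = π (ρ⁻¹ * (U * (ρ * V * ρ⁻¹) * U⁻¹) * ρ) := by congr 1; group
        _ = π (ρ⁻¹ * (ρ * V * ρ⁻¹) * ρ) := by
          rw [ρ2, ← conj_mul, UV, (Cq eU).eq, mul_inv_cancel_right]; simp [πs]
        _ = _ := by congr 1; group
    generalize ρ⁻¹ * U * ρ = k at a1 a2
    have a3 : Commute (k⁻¹ * x) C := by
      rw [commute_iff_eq, ← mul_inv_eq_iff_eq_mul, show k⁻¹ * x * C * (k⁻¹ * x)⁻¹ = k⁻¹ * (x * C * x⁻¹) * k by group,
        h, ← a1]; group
    have a4 : Commute (x * x) C := by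
      rw [commute_iff_eq, ← mul_inv_eq_iff_eq_mul, show x * x * C * (x * x)⁻¹ = x * (x * C * x⁻¹) * x⁻¹ by group,
        h, ← conj_mul, h, (sc x).eq, mul_inv_cancel_right, mul_assoc, s2, mul_one]
    refine ⟨?_, by rw [show 16 = 2 * 8 from rfl, pow_mul, pow_two, ← map_mul, (b1 _ a4).2]⟩
    rw [← mul_inv_cancel_left k x, map_mul]
    replace a2 : Commute (π k) (π V) := by rwa [map_mul, map_mul, map_inv, mul_inv_eq_iff_eq_mul] at a2
    refine (b2 _ a3).imp a2.mul_left fun e => ?_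
    replace a1 := congrArg π a1
    rw [map_mul, map_mul, map_mul, πs, mul_one, map_inv] at a1
    rw [mul_inv_rev, ← mul_assoc, mul_assoc (π k), mul_assoc (π k), e, ← conj_mul, a1, a2.eq, mul_inv_cancel_right]
  have Dx : ∀ x : L, IsConj (j c) ((x * C * x⁻¹ : L) : G) ∧ IsConj (j c) ((x * C * x⁻¹ * s : L) : G) := fun x =>
    ⟨isConj_iff.2 ⟨x, eC ▸ rfl⟩, De.trans (isConj_iff.2 ⟨x, by
      rw [← Cs, mul_assoc (x * C), (sc x⁻¹).eq]; simp [mul_assoc]⟩)⟩
  have jc : ∀ k q, IsConj (j q) (j (k * q * k⁻¹)) := fun k q => isConj_iff.2 ⟨j k, by simp⟩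
  have hS : ∀ a ∈ LS, ¬ IsConj (j c) (j (ev a.1 * ev a.2 * (ev a.1)⁻¹)) := fun a ha h => by
    have := h.trans (jc _ _).symm
    rcases (by decide : ∀ a ∈ LS, a.2 = [] ∨ a.2 = [4] ∨ a.2 = [8, 10, 10]) a ha with e | e | e <;> rw [e] at this
    · exact sq_ne (inj ((isConj_one_left.1 (map_one j ▸ this :)).trans (map_one j).symm))
    exacts [Sz this, Ss this]
  have hD : ∀ a ∈ LD, IsConj (j c) (j (ev a.1 * ev a.2 * (ev a.1)⁻¹)) := fun a ha => by
    refine IsConj.trans ?_ (jc _ _)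
    rcases (by decide : ∀ a ∈ LD, a.2 = [10, 10] ∨ a.2 = [8] ∨ a.2 = [4, 8]) a ha with e | e | e <;> rw [e]
    exacts [ev_c ▸ IsConj.refl _, De, Dw]
  have xs : ∀ {x : L} {w}, (x : G) = j (ev w) → (x * s : L) = j (ev w * ev [8, 10, 10]) := fun e => by
    rw [Subgroup.coe_mul, e, es, map_mul]
  have sq : ∀ {x : L} {w}, (x : G) = j (ev w) → x * x = 1 → ev w * ev w = ev [] := fun e h =>
    inj (by rw [map_mul, ← e, ← Subgroup.coe_mul, h]; exact (map_one j).symm)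
  have ha0 : ∀ x : L, Commute (x * C * x⁻¹) C → π (x * C * x⁻¹) = π C ∨ π (x * C * x⁻¹) = π V ∨
      π (x * C * x⁻¹) = π C * π V := fun x h => by
    obtain ⟨w, hw, e⟩ := base (x * C * x⁻¹) (eC ▸ hT x (by rw [← eC]; exact congrArg Subtype.val h.eq) :)
    rcases ((chk w hw).2.2 (sq e (cq x C C2))).1 with h1 | h1 <;> obtain ⟨a, ha, h2⟩ := isC_spec h1
    · exact (hS a ha (h2.elim (fun h => h ▸ e ▸ (Dx x).1) fun h => h ▸ xs e ▸ (Dx x).2)).elim
    obtain ⟨y, e1, e2⟩ : ∃ y : L, π (x * C * x⁻¹) = π y ∧ (y : G) = j (ev a.1 * ev a.2 * (ev a.1)⁻¹) := by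
      rcases h2 with h2 | h2
      exacts [⟨_, rfl, h2 ▸ e⟩, ⟨_ * s, by rw [map_mul _ _ s, πs, mul_one], h2 ▸ xs e⟩]
    have : y = C ∨ y = W ∨ y = W * C := by
      simp only [List.mem_cons, List.not_mem_nil, or_false] at ha
      simp only [Subtype.ext_iff, Subgroup.coe_mul, e2, eC, eW, ← map_mul, ← ev_c]
      rcases ha with rfl | rfl | rfl <;> simp [mul_assoc]
    rw [e1, ← map_mul, CV.eq]
    rcases hV with rfl | rfl <;> rcases this with rfl | rfl | rfl <;> simp [mul_assoc, -map_mul, C2]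
  have ρ3 : ρ * (C * V) * ρ⁻¹ = C := by rw [← conj_mul, ρ1, ρ2, CV.eq, ← mul_assoc, V2, one_mul]
  have Fρ : ∀ {d}, (π (ρ⁻¹ * d * ρ) = π C ∨ π (ρ⁻¹ * d * ρ) = π V ∨ π (ρ⁻¹ * d * ρ) = π C * π V) →
      π d = π C ∨ π d = π V ∨ π d = π C * π V := fun {d} h => by
    rw [show d = ρ * (ρ⁻¹ * d * ρ) * ρ⁻¹ by group, map_mul, map_mul]
    rcases h with h | h | h <;> rw [h] <;> simp only [← map_mul, ρ1, ρ2, ρ3] <;> simp
  have cjρ : ∀ {x y : L}, Commute x (ρ * y * ρ⁻¹) → Commute (ρ⁻¹ * x * ρ) y := fun {x y} h => by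
    simpa [mul_assoc] using h.map (MulAut.conj ρ⁻¹)
  have tri : ∀ {a : L}, Commute (π a) (π C) → Commute (π a) (π V) →
      Commute a C ∨ Commute a V ∨ Commute a (C * V) := fun {a} h h' => by
    rcases lc C2 h with h1 | h1
    · exact .inl h1
    rcases lc V2 h' with h2 | h2
    · exact .inr (.inl h2)
    refine .inr (.inr (mul_inv_eq_iff_eq_mul.1 ?_))
    rw [← conj_mul, h1, h2, mul_assoc, ← mul_assoc s, ← (sc V).eq, mul_assoc, s2, mul_one]
  have tri' : ∀ {a : L}, a * a = 1 → Commute (π a) (π C) →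
      Commute a C ∨ Commute a V ∨ Commute a (C * V) := fun {a} a2 h => by
    rcases (hb _ h).1 with h' | h'
    · exact tri h h'
    refine .inl ((lc C2 h).resolve_right fun h1 => s1 ?_)
    have e : a * (a * V * a⁻¹) * a⁻¹ = V := by
      rw [← mul_assoc, ← mul_assoc, a2, mul_assoc, ← mul_inv_rev, a2]; simp
    have e1 : ∀ x y, C * s * (C * x) * y = x * (s * y) := fun x y => by
      rw [(sc C).eq, mul_assoc s C, ← mul_assoc C, C2, one_mul, ← (sc x).eq, mul_assoc]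
    rcases lf (cq a V V2) (show C * V * (C * V) = 1 by rw [CV.symm.mul_mul_mul_comm, C2, V2, one_mul])
      (by simpa only [map_mul, map_inv] using h') with h2 | h2
    · rw [h2, ← conj_mul, h1, h2, ← mul_one (_ * _), e1, mul_one] at e
      exact mul_eq_left.1 e
    · rw [h2, ← conj_mul, ← conj_mul, h1, h2, (sc a).eq, mul_inv_cancel_right, mul_assoc C V, e1, s2, mul_one] at e
      exact mul_eq_left.1 e
  have := tw' (c := π C) (v := π V) (u := π U) (ρ := π ρ) (by rw [← map_mul, C2, map_one]) C1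
    (by rw [← map_mul, U2, map_one]) (CV.map π) (by rw [← ρ1]; simp) (by rw [← map_mul π C, ← ρ2]; simp) hb
    (fun x h => by
      obtain ⟨x, rfl⟩ := QuotientGroup.mk'_surjective _ x
      rw [← map_inv, ← map_mul, ← map_mul] at h ⊢
      have e : ∀ x : L, ρ⁻¹ * (x * C * x⁻¹) * ρ = ρ⁻¹ * x * C * (ρ⁻¹ * x)⁻¹ := fun x => by group
      rcases tri' (cq x C C2) h with h | h | h
      · exact ha0 x h
      · exact Fρ (e x ▸ ha0 _ (e x ▸ cjρ (ρ1 ▸ h)))
      · exact Fρ (Fρ (by rw [e, e]; exact ha0 _ (by rw [← e, ← e]; exact cjρ (ρ1 ▸ cjρ (ρ2 ▸ h))))))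
    (Z := fun a => ∃ x, π x = a ∧ Commute a (π C) ∧ Commute a (π V) ∧ ¬ (Commute x C ∧ Commute x V))
    (by
      rintro _ ⟨x, rfl, h1, h1', h2⟩
      exact ⟨C * x, map_mul .., (Commute.refl _).mul_left h1, (CV.map π).mul_left h1', fun h => h2
        ⟨by simpa using (Commute.refl C).inv_left.mul_left h.1, by simpa using CV.inv_left.mul_left h.2⟩⟩)
    (by
      rintro _ ⟨x, rfl, h1, h1', h2⟩
      obtain ⟨d, d1, d2⟩ : ∃ d, (d = C ∨ d = V ∨ d = C * V) ∧ Commute x d := by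
        rcases tri h1 h1' with h | h | h
        exacts [⟨_, .inl rfl, h⟩, ⟨_, .inr (.inl rfl), h⟩, ⟨_, .inr (.inr rfl), h⟩]
      refine ⟨h1, h1', π d, d1.imp (congrArg π) (Or.imp (congrArg π) fun e => by rw [e, map_mul]), fun b hb h => ?_⟩
      obtain ⟨b, rfl⟩ := QuotientGroup.mk'_surjective _ b
      obtain ⟨k, ek⟩ := cl (a := b * x * b⁻¹) (b := x) (by
        rw [map_mul, map_mul, hb.eq, map_inv, mul_inv_cancel_right])
      have a1 : Commute x (b * d * b⁻¹) := by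
        have := (d2.map (MulAut.conj b)).mul_left (zc _ (inv_mem ⟨k, rfl⟩) _).symm
        simpa only [MulAut.conj_apply, ek, mul_inv_cancel_right] using this
      obtain ⟨d', e1, e2⟩ : ∃ d', (d' = C ∨ d' = V ∨ d' = C * V) ∧ π (b * d * b⁻¹) = π d' := by
        rw [map_mul, map_mul, map_inv]
        rcases h with h | h | h
        exacts [⟨_, .inl rfl, h⟩, ⟨_, .inr (.inl rfl), h⟩, ⟨_, .inr (.inr rfl), h.trans (map_mul ..).symm⟩]
      obtain ⟨i, ei⟩ := cl e2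
      have a2 : Commute x d' := by simpa only [ei, mul_inv_cancel_right] using a1.mul_right (zc _ (inv_mem ⟨i, rfl⟩) x)
      rw [← map_inv, ← map_mul, ← map_mul, e2]
      have p1 : ∀ {x : L}, Commute x C → Commute x (C * V) → Commute x V := fun a b => by
        simpa using a.inv_right.mul_right b
      have p2 : ∀ {x : L}, Commute x V → Commute x (C * V) → Commute x C := fun a b => by
        simpa using b.mul_right a.inv_right
      rcases d1 with rfl | rfl | rfl <;> rcases e1 with rfl | rfl | rfl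
      exacts [rfl, (h2 ⟨d2, a2⟩).elim, (h2 ⟨d2, p1 d2 a2⟩).elim, (h2 ⟨a2, d2⟩).elim, rfl, (h2 ⟨p2 d2 a2, d2⟩).elim,
        (h2 ⟨a2, p1 a2 d2⟩).elim, (h2 ⟨p2 a2 d2, a2⟩).elim, rfl])
    (fun x h h' => by
      obtain ⟨x, rfl⟩ := QuotientGroup.mk'_surjective _ x
      refine ⟨x * U * x⁻¹, by simp [π], h, h', fun ⟨h1, h2⟩ => ?_⟩
      obtain ⟨w, hw, e⟩ := base _ ((b1 _ h1).1.resolve_right fun e => C1 (by
        rwa [(h2.map π).eq, mul_inv_cancel_right, eq_comm, mul_eq_right] at e))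
      have h3 : Commute (x * U * x⁻¹) W := by
        rcases hV with rfl | rfl
        exacts [h2, by simpa only [mul_inv_cancel_right] using h2.mul_right h1.inv_right]
      have n1 : ¬ IsConj (j c) (U : G) := eU ▸ cj [30] [4] [28] ▸ hS ([30], [4]) (by decide)
      have n2 : ¬ IsConj (j c) ((U * s : L) : G) := by
        rw [xs eU, ml _ _ [28, 8, 10, 10], ← cj [6, 30, 10] [4] [28, 8, 10, 10]]
        exact fun h => Sz (h.trans (jc _ _).symm)
      have n3 : x * U * x⁻¹ * s = x * (U * s) * x⁻¹ := by rw [mul_assoc (x * U), (sc x⁻¹).eq]; simp [mul_assoc]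
      rcases ((chk w hw).2.2 (sq e (cq x U U2))).2 (inj (by
        rw [map_mul, map_mul, ← e, ← eW]; exact congrArg Subtype.val h3.eq)) with h4 | h4 <;>
        obtain ⟨a, ha, h5 | h5⟩ := isC_spec h4
      · have := hD a ha
        rw [← h5, ← e] at this
        exact n1 (this.trans (isConj_iff.2 ⟨(x : G), rfl⟩).symm)
      · have := hD a ha
        rw [← h5, ← xs e, n3] at this
        exact n2 (this.trans (isConj_iff.2 ⟨(x : G), rfl⟩).symm)
      · rw [h5, List.mem_singleton.1 ha] at e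
        have : x * U * x⁻¹ = 1 := Subtype.ext (by simpa using e)
        exact nev [28] [] (by decide +kernel) (inj (by rw [← eU, conj_eq_one_iff.1 this]; exact (map_one j).symm))
      · have := xs e
        rw [h5, List.mem_singleton.1 ha, n3] at this
        have : x * (U * s) * x⁻¹ = 1 := Subtype.ext (by simpa using this)
        exact nev ([28] ++ [8, 10, 10]) [] (by decide +kernel) (inj (by
          rw [ev, evW_append, ← xs eU, conj_eq_one_iff.1 this]; exact (map_one j).symm)))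
    ((Cq eU).map π) (mul_inv_eq_iff_eq_mul.1 (by rw [← map_inv, ← map_mul, ← map_mul, UV, map_mul, πs, mul_one]))
    (fun h => by
      obtain ⟨x, e⟩ := isConj_iff.1 h
      obtain ⟨x, rfl⟩ := QuotientGroup.mk'_surjective _ x
      rcases lf U2 (cq x C C2) (by rw [← e]; simp [π]) with e | e
      · exact Sz ((cj [30] [4] [28] ▸ eU ▸ e ▸ (Dx x).1 :).trans (jc _ _).symm)
      · exact Sz ((cj [30] [4] [28] ▸ eU ▸ e ▸ (Dx x).2 :).trans (jc _ _).symm)) (π Y)
  rw [← map_inv, ← map_mul, ← map_mul] at this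
  have e : g * ((Y * C * Y⁻¹ : L) : G) * g⁻¹ = j (ev [32, 8, 33]) := by
    simp only [Subgroup.coe_mul, Subgroup.coe_inv, eY, eC, ← cj [32] [8] [32, 8, 33], map_mul, map_inv, ← g1]
    group
  rcases lc C2 this with h | h
  · refine nev ([32, 8, 33] ++ [8]) ([8] ++ [32, 8, 33]) (by decide +kernel) (inj ?_)
    simp only [evW_append, map_mul]
    rw [← e, ← g1, ← eC, conj_mul, conj_mul, ← Subgroup.coe_mul, h.eq, Subgroup.coe_mul]
  · refine nev ([32, 8, 33] ++ [8]) ([8] ++ [4, 10, 10] ++ [32, 8, 33]) (by decide +kernel) (inj ?_)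
    simp only [evW_append, map_mul]
    rw [← e, ← g1, ← g2, ← eC, ← es, conj_mul, conj_mul, conj_mul, ← Subgroup.coe_mul, mul_inv_eq_iff_eq_mul.1 h,
      Subgroup.coe_mul, Subgroup.coe_mul]
end H54.HNT
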