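import Cfsg.Agent.Lib.HNT.StA
import Cfsg.Agent.Lib.HNT.StT
/-! The element of order 5 which generates HN together with 2.HS.2 -/
set_option autoImplicit false
set_option maxRecDepth 100000
set_option maxHeartbeats 400000
namespace H54.HNT
open Cfsg.Spor H15.Mdl H54.HN H16 Cfsg MulAction
section
variable {G : Type*} [Group G] {t g : G} {j : P →* G} {b : List ℕ}
theorem jcm (inj : Function.Injective j) {q r : P} (h : Commute (j q) (j r)) : Commute q r :=
  inj (by simpa only [map_mul] using h.eq)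
theorem cD {q : P} (k : P) (h : IsConj t (j q)) : IsConj t (j (k * q * k⁻¹)) :=
  h.trans (isConj_iff.2 ⟨j k, by simp⟩)
theorem cD' {q : P} (k : P) (h : IsConj t (j (k * q * k⁻¹))) : IsConj t (j q) := by
  simpa [mul_assoc] using cD k⁻¹ h
theorem trz' (inj : Function.Injective j) (hq : ∃ q, j q = g * j (ev [4]) * g⁻¹) (g1 : g * j c * g⁻¹ = j (ev [8]))
    (h0 : g * j (ev [16]) * g⁻¹ = j (ev [0])) (h1 : g * j (ev [6]) * g⁻¹ = j (ev b)) (hb : b = [4] ∨ b = [4, 8]) :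
    ∃ u, (u = [6] ∨ u = [6, 8] ∨ u = [6, 10, 10] ∨ u = [6, 8, 10, 10]) ∧ g * j (ev [4]) * g⁻¹ = j (ev u) := by
  obtain ⟨q, e⟩ := hq
  have a : Commute q (ev [8]) := jcm inj (e ▸ g1 ▸ ((cen _).map j).map (MulAut.conj g))
  have b1 : Commute q (ev b) := jcm inj (e ▸ h1 ▸ ((cm [4] [6]).map j).map (MulAut.conj g))
  have b2 := trW h0 h1 [0, 2, 0, 0, 2, 0, 2, 1, 1, 2, 1, 1, 2, 1, 2] [4, 16, 5]
    [0, 4, 0, 0, 4, 0, 4, 1, 1, 4, 1, 1, 4, 1, 4] (by decide +kernel) (by rcases hb with rfl | rfl <;> decide +kernel)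
  rcases third a (inj (by rw [map_mul, e, conj_mul, ← map_mul, ml [4] [4] []]; simp))
    (by
      rcases hb with rfl | rfl
      exacts [b1, ml [4, 8] [8] [4] ▸ b1.mul_right a])
    (inj (by rw [map_mul, map_mul, ← b2, ← cj [4] [16] [4, 16, 5], e, ← h0]; simp [mul_assoc])) with h | h | h | h <;>
    exact ⟨_, by simp, h ▸ e.symm⟩
theorem not_tw' [Finite G] (inj : Function.Injective j)
    (rng : ∀ g, Commute g (j c) → ∃ q κ, j q * κ = g ∧ (κ = 1 ∨ Kp j κ))
    (hT : ∀ g, Commute (g * j c * g⁻¹) (j c) → ∃ q, j q = g * j c * g⁻¹) (ns : ¬ IsConj (j c) (j (ev [8, 10, 10])))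
    (hq : ∃ q, j q = g * j (ev [4]) * g⁻¹) (g1 : g * j c * g⁻¹ = j (ev [8])) (g2 : g * j (ev [8]) * g⁻¹ = j c)
    (h0 : g * j (ev [16]) * g⁻¹ = j (ev [0])) (h1 : g * j (ev [6]) * g⁻¹ = j (ev [4, 8])) : False := by
  have De : IsConj (j c) (j (ev [8])) := isConj_iff.2 ⟨g, g1⟩
  have Df : IsConj (j c) (j (ev [6])) := cj [18] [8] [6] ▸ cD _ De
  have Dz : ¬ IsConj (j c) (j (ev [4])) := fun h => ns (cD' (ev [18]) (by
    rw [cj _ _ [6, 10, 10]]
    refine h.trans (IsConj.symm (isConj_iff.2 ⟨g, ?_⟩))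
    rw [show ev [6, 10, 10] = _ from (ev_mc [6]).symm, map_mul, ← conj_mul, h1, g1, ← map_mul, ml _ _ [4]]))
  have cn : ∀ u v w, cmp ([18, 18] ++ u) (v ++ [18, 18]) = true → g * j (ev v) * g⁻¹ = j (ev w) →
      g * j (ev [18, 18]) * j (ev u) * (g * j (ev [18, 18]))⁻¹ = j (ev w) := fun u v w a e => by
    rw [← e, ← cj _ _ _ a]; simp [mul_assoc]
  have pr : ∀ {u v u' v' : List ℕ} (w w' : List ℕ), g * j (ev u) * g⁻¹ = j (ev u') → g * j (ev v) * g⁻¹ = j (ev v') →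
      cmp (u ++ v) w = true → cmp (u' ++ v') w' = true → g * j (ev w) * g⁻¹ = j (ev w') := fun w w' a b e e' => by
    rw [← ml _ _ _ e, ← ml _ _ _ e', map_mul, map_mul, ← conj_mul, a, b]
  have g1' : g * j (ev [10, 10]) * g⁻¹ = j (ev [8]) := by rw [ev_c, g1]
  have g2' : g * j (ev [8]) * g⁻¹ = j (ev [10, 10]) := by rw [ev_c, g2]
  have tw := fun v hv h4 => twist' inj rng hT De
    (Df.trans (isConj_iff.2 ⟨g, h1⟩)) ns Dz (g := g * j (ev [18, 18]))
    (ev_c ▸ cn _ _ _ (by decide +kernel) g1')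
    (cn _ [8, 6, 10, 10] _ (by decide +kernel) (pr _ _ (pr [8, 6] [4, 8, 10, 10] g2' h1 (by decide +kernel)
      (by decide +kernel)) g1' (by decide +kernel) (by decide +kernel)))
    (cn _ _ _ (by decide +kernel) (trW h0 h1 [1, 1, 2, 0, 2, 1, 2, 1, 2, 0, 2, 1, 1, 2] [20] [20])) (v := v) hv h4
  obtain ⟨u, rfl | rfl | rfl | rfl, e⟩ := trz' inj hq g1 h0 h1 (.inr rfl)
  · exact Dz (Df.trans (isConj_iff.2 ⟨g, e⟩).symm)
  · exact Dz ((cj [18] [6] [6, 8] ▸ cD _ Df :).trans (isConj_iff.2 ⟨g, e⟩).symm)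
  · exact tw _ (.inl rfl) (cn _ [4, 8] _ (by decide +kernel) (pr _ _ e g2' (by decide +kernel) (by decide +kernel)))
  · exact tw _ (.inr rfl) (cn _ [4, 8, 10, 10] _ (by decide +kernel) (pr _ _ (pr [4, 8] [6, 8] e g2'
      (by decide +kernel) (by decide +kernel)) g1' (by decide +kernel) (by decide +kernel)))
theorem exists_T' (inj : Function.Injective j) (od : ∀ x q, Commute x (j c) → x ^ 5 = 1 → x * (j q * (x * x)) = j q →
      ∃ q, j q = x) (ns : ¬ IsConj (j c) (j (ev [8, 10, 10])))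
    (hq : ∃ q, j q = g * j (ev [4]) * g⁻¹) (g1 : g * j c * g⁻¹ = j (ev [8])) (g2 : g * j (ev [8]) * g⁻¹ = j c)
    (h0 : g * j (ev [16]) * g⁻¹ = j (ev [0])) (h1 : g * j (ev [6]) * g⁻¹ = j (ev [4])) :
    ∃ T : G, T ^ 5 = 1 ∧ T * (j (p 0) * (T * T)) = j (p 0) ∧ Commute T (j (p 1)) ∧ (j (p 2) * T) ^ 3 = 1 ∧
      (g * T * g⁻¹ = j (ev [22]) ∨ g * T * g⁻¹ = j (ev [22, 22])) := by
  have De : IsConj (j c) (j (ev [8])) := isConj_iff.2 ⟨g, g1⟩
  have Dz : IsConj (j c) (j (ev [4])) := (cj [18] [8] [6] ▸ cD _ De :).trans (isConj_iff.2 ⟨g, h1⟩)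
  obtain ⟨T, eT⟩ : ∃ T, g * T * g⁻¹ = j (ev [22]) := ⟨g⁻¹ * j (ev [22]) * g, by simp [mul_assoc]⟩
  let γ := MulAut.conj g
  have hx : γ (j (ev [10])) = j (ev [26]) := trW h0 h1 [1, 2, 1, 1, 2, 1, 1, 2, 1, 2] _ _
  have hr : γ (j (ev [20])) = j (ev [20]) := trW h0 h1 [1, 1, 2, 0, 2, 1, 2, 1, 2, 0, 2, 1, 1, 2] _ _
  have hu : γ (j (ev [24])) = j (ev [1, 1, 4, 1, 4, 0, 0]) := trW h0 h1 [1, 1, 2, 1, 2, 0, 0] _ _
  replace eT : γ T = j (ev [22]) := eT
  replace h1' : γ (j (ev [6])) = j (ev [4]) := h1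
  replace g2' : γ (j (ev [8])) = j (ev [10, 10]) := by rw [ev_c]; exact g2
  have cT : ∀ {u v}, γ (j (ev u)) = j (ev v) → cmp ([22] ++ v) (v ++ [22]) = true → Commute T (j (ev u)) :=
    fun e h => γ.injective (by rw [map_mul, map_mul, eT, e]; exact ((cm _ _ h).map j).eq)
  have T5 : T ^ 5 = 1 := γ.injective (by
    rw [map_pow, eT, ← map_pow, map_one, ← map_one j]; congr 1
    simpa [pow_succ, mul_assoc] using eqv [22, 22, 22, 22, 22] [])
  have Tx : T * (j (ev [10]) * (T * T)) = j (ev [10]) := γ.injective (by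
    rw [map_mul, map_mul, map_mul, eT, hx, ← map_mul, ← map_mul, ← map_mul, ml _ _ [22, 22], ml _ _ [26, 22, 22],
      ml _ _ [26]])
  have Tf := cT h1' (by decide +kernel)
  have Tn : Commute T (j (ev [18])) := by
    let ν := MulAut.conj (j (ev [18]))
    have a : ∀ u v, cmp ([18] ++ u) (v ++ [18]) = true → ν (j (ev u)) = j (ev v) := fun u v h => by
      rw [← cj _ _ _ h]; simp [ν]
    have a1 : Commute (ν T) (j (ev [6])) := a [8] [6] (by decide +kernel) ▸ (cT g2' (by decide +kernel)).map ν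
    have a2 : Commute (ν T) (j (ev [8] * ev [6])) := ml [8] [6] [8, 6] ▸ a [6] [8, 6] (by decide +kernel) ▸ Tf.map ν
    have a3 : Commute (γ (ν T)) (j c) := by
      rw [← g2]; exact Commute.map (f := γ) (by simpa using a2.mul_right a1.inv_right)
    have a4 : γ (ν T) ^ 5 = 1 := by rw [← map_pow, ← map_pow, T5]; simp
    have a5 : γ (ν T) * (j (ev [26]) * (γ (ν T) * γ (ν T))) = j (ev [26]) := by
      rw [← hx, ← a [10] [10] (by decide +kernel)]
      simp only [← map_mul, Tx]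
    obtain ⟨q, e⟩ := od _ _ a3 a4 a5
    obtain ⟨i, ei⟩ := sixth (q := q) (jcm inj (e ▸ h1' ▸ a1.map γ))
      (jcm inj (e ▸ hr ▸ (a [20] [20] (by decide +kernel) ▸ (cT hr (by decide +kernel)).map ν :).map γ))
      (inj (by rw [map_pow, e, a4, map_one])) (inj (by rw [map_mul, map_mul, map_mul, e, a5]))
    have e1 : ν T = T ^ i := γ.injective (by rw [← e, ei, map_pow, map_pow, eT])
    have e3 : ∀ y, ν (ν (ν y)) = y := fun y => by
      have : j (ev [18]) * (j (ev [18]) * j (ev [18])) = 1 := by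
        rw [← map_mul, ← map_mul, ml _ _ [18, 18], ml _ _ []]; exact map_one j
      rw [← MulAut.mul_apply, ← MulAut.mul_apply, ← map_mul, ← map_mul, mul_assoc, this, map_one, MulAut.one_apply]
    have e4 : ν T = T ^ (i ^ 4 % 5) := by
      rw [← pow_eq_pow_mod _ T5, ← e3 (ν T)]
      simp only [e1, map_pow, ← pow_mul]; congr 1; ring
    have : i ^ 4 % 5 = 0 ∨ i ^ 4 % 5 = 1 := by
      rw [Nat.pow_mod]
      have := Nat.mod_lt i (show 0 < 5 by norm_num)
      generalize i % 5 = k at this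
      interval_cases k <;> simp
    rcases this with h | h <;> rw [h] at e4
    · rw [(map_eq_one_iff ν ν.injective (x := T)).1 (e4.trans (pow_zero T))]; exact Commute.one_left _
    · exact (mul_inv_eq_iff_eq_mul.1 (e4.trans (pow_one T))).symm
  have Ty : Commute T (j (ev [12])) := by
    have := cT hu (by decide +kernel)
    rw [← eqv [25, 19, 24, 6, 25, 19, 25, 18] [12], map_evW]
    refine Subgroup.mem_centralizer_singleton_iff.1 (evW_mem (K := Subgroup.centralizer {T}) fun l hl => ?_) |>.symm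
    rw [Subgroup.mem_centralizer_singleton_iff, ← mul_one (N _)]
    simp only [List.mem_cons, List.not_mem_nil, or_false] at hl
    rcases hl with rfl | rfl | rfl | rfl | rfl | rfl | rfl | rfl
    exacts [this.symm, Tn.symm, this.symm, Tf.symm, this.symm, Tn.symm, this.symm, Tn.symm]
  rw [ev_x] at Tx
  rw [ev_y] at Ty
  have ns' : ∀ u k, cmp (k ++ [8, 10, 10]) (u ++ k) = true → g * j (ev [4]) * g⁻¹ ≠ j (ev u) := fun u k h e =>
    ns (cD' (ev k) (cj _ _ _ h ▸ Dz.trans (isConj_iff.2 ⟨g, e⟩)))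
  obtain ⟨u, rfl | rfl | rfl | rfl, e⟩ := trz' inj hq g1 h0 h1 (.inl rfl)
  · refine ⟨T, T5, Tx, Ty, γ.injective ?_, .inl eT⟩
    rw [map_pow, map_mul, ← ev_z, eT, show γ _ = _ from e, ← map_mul, ← map_pow, map_one, ← map_one j]; congr 1
    simpa [pow_succ, mul_assoc] using eqv [6, 22, 6, 22, 6, 22] []
  · refine ⟨T * T, by rw [← pow_two, ← pow_mul, mul_comm, pow_mul, T5, one_pow], ?_, Ty.mul_left Ty, γ.injective ?_,
      .inr ((map_mul γ T T).trans (by rw [eT, ← map_mul, ml _ _ [22, 22]]))⟩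
    · rw [mul_assoc, ← mul_assoc (j _), ← mul_assoc T (_ * _), Tx, Tx]
    · rw [map_pow, map_mul, map_mul, ← ev_z, eT, show γ _ = _ from e, ← map_mul, ← map_mul, ← map_pow, map_one,
        ← map_one j]; congr 1
      simpa [pow_succ, mul_assoc] using eqv [6, 8, 22, 22, 6, 8, 22, 22, 6, 8, 22, 22] []
  · exact absurd e (ns' _ [18] (by decide +kernel))
  · exact absurd e (ns' _ [18, 18] (by decide +kernel))
end
end H54.HNT
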