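import Cfsg.Agent.Lib.HNT.StB
/-! A group with a standard subgroup 2.HS contains HN -/
set_option autoImplicit false
set_option maxRecDepth 100000
set_option maxHeartbeats 400000
namespace H54.HNT
open Cfsg.Spor H15.Mdl H54.HN H16 Cfsg MulAction
variable {G : Type*} [Group G]
namespace St
variable {F : P → G} (E : St F) {g : G} {b : List ℕ}
include E
theorem FK {y : P} (hy : y ∈ K) (a : Act F (F y) 1) : F y * F y = 1 := by
  rcases ker_ψ ((E.uniq (E.aF hy) a).trans (map_one ψ)) with rfl | rfl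
  exacts [by rw [E.one, one_mul], E.tt]
theorem pow {y : P} (hy : y ∈ K) : ∀ n : ℕ, F (y ^ n) = F y ^ n
  | 0 => by rw [pow_zero, pow_zero, E.one]
  | n + 1 => by rw [pow_succ, pow_succ, E.mul (K.pow_mem hy n) hy, pow hy n]
theorem congr {F' : P → G} (h : ∀ y ∈ K, F' y = F y) : St F' ∧ ∀ g q, Act F' g q ↔ Act F g q := by
  have a : ∀ g q, Act F' g q ↔ Act F g q := fun g q => forall₂_congr fun y hy => by rw [h y hy, h _ (conjK.2 hy)]
  refine ⟨⟨fun a b e => E.inj a b (by rwa [h _ a, h _ b] at e), fun a b => by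
    rw [h _ a, h _ b, h _ (K.mul_mem a b), E.mul a b], fun e => ?_, fun b1 b2 b3 b4 => ?_⟩, a⟩
  · simpa only [a] using E.act (h c cK ▸ e)
  · exact h c cK ▸ E.ti b1 b2 ((a ..).1 b3) ((a ..).1 b4)
theorem exists_j {ζ : G} (a : Act F ζ (ev [4])) (z2 : ζ * ζ = 1) :
    ∃ j : P →* G, Function.Injective j ∧ (∀ y ∈ K, j y = F y) ∧ j (ev [4]) = ζ := by
  classical
  have zK := niK [4]
  have zz : ev [4] * ev [4] = 1 := ml _ _ []
  generalize ev [4] = z at *
  have zi := inv_eq_of_mul_eq_one_left zz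
  have z3 : ∀ q, z * (z * q) = q := fun q => by rw [← mul_assoc, zz, one_mul]
  have Sh : ∀ {q}, q ∈ K → ζ * F q = F (z * q * z⁻¹) * ζ := fun h => mul_inv_eq_iff_eq_mul.1 (a _ h)
  refine ⟨MonoidHom.mk' (fun q => if q ∈ K then F q else F (q * z) * ζ) fun q r => ?_,
    (injective_iff_map_eq_one _).2 fun q e => ?_, fun y hy => if_pos hy, (if_neg zK).trans (by rw [zz, E.one, one_mul])⟩
  · by_cases a : q ∈ K <;> by_cases b : r ∈ K
    · rw [if_pos a, if_pos b, if_pos (K.mul_mem a b), E.mul a b]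
    · rw [if_pos a, if_neg b, if_neg (mt (K.mul_mem_cancel_left a).1 b), ← mul_assoc, ← E.mul a (mulK b zK), mul_assoc]
    · rw [if_neg a, if_pos b, if_neg (mt (K.mul_mem_cancel_right b).1 a), mul_assoc (F _), Sh b, ← mul_assoc,
        ← E.mul (mulK a zK) (conjK.2 b)]
      simp only [mul_assoc, z3, zi]
    · rw [if_neg a, if_neg b, if_pos (mulK a b), mul_assoc, ← mul_assoc ζ, Sh (mulK b zK), mul_assoc, z2, mul_one,
        ← E.mul (mulK a zK) (conjK.2 (mulK b zK))]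
      simp only [mul_assoc, z3, zi, zz, mul_one]
  · by_cases h : q ∈ K
    · exact E.inj h K.one_mem (((if_pos h).symm.trans e).trans E.one.symm)
    · have := (E.aF (mulK h zK)).mul a
      rw [(if_neg h).symm.trans e, mul_assoc, zz, mul_one] at this
      exact absurd (K_of_ψ (E.uniq this Act.one) K.one_mem) h
variable (hb : b = [4] ∨ b = [4, 8]) (g1 : g * F c * g⁻¹ = F (ev [8])) (g2 : g * F (ev [8]) * g⁻¹ = F c)
  (a0 : Act F (g * F (ev [16]) * g⁻¹) (ev [0])) (a1 : Act F (g * F (ev [6]) * g⁻¹) (ev b))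
include g1 g2
omit E in
theorem gg : Commute (g * g) (F c) := mul_inv_eq_iff_eq_mul.1 (by
  rw [mul_inv_rev, ← mul_assoc, mul_assoc g, mul_assoc g, g1, g2])
include hb a0 a1
theorem kc {κ : G} (h : Act F κ 1) : ∃ u ∈ s9U, Act F (g * κ * g⁻¹) (ev u) := by
  have cm' : ∀ {y}, y ∈ K → Commute (g * κ * g⁻¹) (g * F y * g⁻¹) := fun hy =>
    (h.cF hy (Commute.one_left _)).map (MulAut.conj g)
  obtain ⟨q, a⟩ := E.act (g2 ▸ cm' (inK [8]))
  have e := E.comm a (E.aF (inK [8])) (g1 ▸ cm' cK)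
  have z := E.comm a a1 (cm' (inK _))
  obtain ⟨u, hu, e⟩ := ninth e (E.comm a a0 (cm' (inK _))) (by
    rcases hb with rfl | rfl
    exacts [z, ml [4, 8] [8] [4] ▸ map_mul ψ _ _ ▸ z.mul_right e])
  exact ⟨u, hu, a.congr e⟩
theorem kc' {κ : G} (h : Act F κ 1) : ∃ u ∈ s9U, Act F (g⁻¹ * κ * g) (ev u) := by
  obtain ⟨q, a⟩ := E.act (gg g1 g2)
  simpa [mul_assoc] using E.kc hb g1 g2 a0 a1 (a.inv.ker h)
theorem odd {κ : G} (h : Act F κ 1) (ho : Odd (orderOf κ)) : Act F (g * κ * g⁻¹) 1 ∧ Act F (g⁻¹ * κ * g) 1 := by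
  have a : ∀ g : G, (∃ u ∈ s9U, Act F (g * κ * g⁻¹) (ev u)) → Act F (g * κ * g⁻¹) 1 := fun g ⟨u, hu, a⟩ => by
    obtain ⟨m, e⟩ := exists_pow_eq_self_of_coprime (x := κ) (n := 4) (Nat.Coprime.pow_left 2 (Nat.coprime_two_left.2 ho))
    have := ((a.pow 4).congr (r := 1) (by
      simp only [s9U, List.mem_cons, List.not_mem_nil, or_false] at hu
      congr 1
      rcases hu with rfl | rfl | rfl | rfl
      exacts [one_pow _, by simpa [pow_succ, mul_assoc] using eqv [8, 8, 8, 8] [],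
        by simpa [pow_succ, mul_assoc] using eqv [14, 14, 14, 14] [],
        by simpa [pow_succ, mul_assoc] using eqv [15, 15, 15, 15] []])).pow m
    rwa [conj_pow, conj_pow, e, one_pow] at this
  exact ⟨a g (E.kc hb g1 g2 a0 a1 h), by simpa using a g⁻¹ (by simpa using E.kc' hb g1 g2 a0 a1 h)⟩
theorem h0 : g * F (ev [16]) * g⁻¹ = F (ev [0]) := by
  have od := fun κ => E.odd (κ := κ) hb g1 g2 a0 a1
  obtain ⟨q, a⟩ := E.act (g := g * F (ev [10, 25, 20]) * g⁻¹)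
    (g2 ▸ ((E.aF (inK _)).cF (inK _) (cm _ _)).map (MulAut.conj g))
  have u5 : ev [16] ^ 5 = 1 := by simpa [pow_succ, mul_assoc] using eqv [16, 16, 16, 16, 16] []
  have v5 : ev [0] ^ 5 = 1 := by simpa [pow_succ, mul_assoc] using eqv [0, 0, 0, 0, 0] []
  have yu : ev [10, 25, 20] * ev [16] * (ev [10, 25, 20])⁻¹ = (ev [16])⁻¹ := (cj _ _ [17]).trans (by simp [xl])
  have uK := inK [16]
  have vK := inK [0]
  have yK := inK [10, 25, 20]
  generalize ev [16] = u at *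
  generalize ev [0] = v at *
  generalize ev [10, 25, 20] = y at *
  obtain ⟨κ, e⟩ : ∃ κ, g * F u * g⁻¹ = κ * F v := ⟨_, (inv_mul_cancel_right _ _).symm⟩
  have h : Act F κ 1 := by simpa [e] using a0.mul (E.aF vK).inv
  have c0 := h.cF vK (Commute.one_left _)
  have k5 : κ ^ 5 = 1 := by
    have := congrArg (· ^ 5) e
    simpa only [conj_pow, c0.mul_pow, ← E.pow uK, ← E.pow vK, u5, v5, E.one, mul_one, mul_inv_cancel, eq_comm] using this
  have w : Commute (g * F y * g⁻¹) κ := by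
    simpa [mul_assoc] using ((od κ h (Odd.of_dvd_nat (by decide) (orderOf_dvd_of_pow_eq_one k5))).2.cF yK
      (Commute.one_left _)).symm.map (MulAut.conj g)
  have e1 : κ * F (q * v * q⁻¹) = (κ * F v)⁻¹ := by
    rw [← a _ vK, ← mul_assoc, ← mul_assoc, ← w.eq, mul_assoc _ κ, ← e, conj_mul, conj_inv, conj_mul, E.aF yK _ uK, yu,
      E.inv uK, conj_inv]
  have m := K.mul_mem (conjK.2 vK : q * v * q⁻¹ ∈ K) vK
  have e2 : κ * κ = F (q * v * q⁻¹ * v)⁻¹ := by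
    rw [E.inv m, E.mul (conjK.2 vK) vK, eq_inv_iff_mul_eq_one, mul_assoc, ← mul_assoc κ (F _), e1, c0.eq]; group
  have e3 := E.FK (K.inv_mem m) (by simpa only [e2, one_mul] using h.mul h)
  rw [← e2, show κ * κ * (κ * κ) = κ ^ 5 * κ⁻¹ by simp [pow_succ, mul_assoc], k5, one_mul, inv_eq_one] at e3
  rw [e, e3, one_mul]
end St
/-- the configuration of 2.HS.2 and an element which interchanges `c` and `e` -/
structure Sw (j : P →* G) (g : G) (b : List ℕ) : Prop where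
  E : St j
  inj : Function.Injective j
  hb : b = [4] ∨ b = [4, 8]
  g1 : g * j c * g⁻¹ = j (ev [8])
  g2 : g * j (ev [8]) * g⁻¹ = j c
  h0 : g * j (ev [16]) * g⁻¹ = j (ev [0])
  h1 : g * j (ev [6]) * g⁻¹ = j (ev b)
theorem St.sw {F : P → G} (E : St F) (h : IsConj (F c) (F (ev [8]))) : ∃ (j : P →* G) (g : G) (b : List ℕ), Sw j g b := by
  obtain ⟨g, b, hb, g1, g2, a0, a1⟩ := E.swap h
  have f2 : g * F (ev [6]) * g⁻¹ * (g * F (ev [6]) * g⁻¹) = 1 := by
    rw [conj_mul, ← E.mul (inK _) (inK _), ml _ _ [], ev, evW_nil, E.one]; simp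
  have e2 : F (ev [8]) * F (ev [8]) = 1 := by rw [← E.mul (inK _) (inK _), ml _ _ []]; exact E.one
  obtain ⟨j, i, e, z⟩ : ∃ j : P →* G, Function.Injective j ∧ (∀ y ∈ K, j y = F y) ∧
      j (ev b) = g * F (ev [6]) * g⁻¹ := by
    rcases hb with rfl | rfl
    · exact E.exists_j a1 f2
    · obtain ⟨j, i, e, z⟩ := E.exists_j (ml [4, 8] [8] [4] ▸ a1.mul (E.aF (inK [8]))) (by
        rw [(a1.cF (inK _) (cm _ _)).symm.mul_mul_mul_comm, f2, e2, one_mul])
      exact ⟨j, i, e, by rw [← ml [4] [8] [4, 8], map_mul, z, e _ (inK _), mul_assoc, e2, mul_one]⟩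
  exact ⟨j, g, b, (E.congr e).1, i, hb, by rwa [e _ cK, e _ (inK _)], by rwa [e _ cK, e _ (inK _)],
    by rw [e _ (inK _), e _ (inK _), E.h0 hb g1 g2 a0 a1], by rw [e _ (inK _), z]⟩
theorem Act.mul1 {F : P → G} {g h : G} (a : Act F g 1) (b : Act F h 1) : Act F (g * h) 1 := by simpa using a.mul b
theorem aj (j : P →* G) (q : P) : Act j (j q) q := fun y _ => by simp
namespace Sw
variable {j : P →* G} {g : G} {b : List ℕ} (S : Sw j g b)
include S
theorem dec {x : G} (h : Commute x (j c)) : ∃ q κ, j q * κ = x ∧ Act j κ 1 := by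
  obtain ⟨q, a⟩ := S.E.act h
  exact ⟨q, _, mul_inv_cancel_left _ x, by simpa using (aj j q).inv.mul a⟩
theorem kc {κ : G} (h : Act j κ 1) : ∃ u ∈ s9U, Act j (g * κ * g⁻¹) (ev u) :=
  S.E.kc S.hb S.g1 S.g2 (S.h0 ▸ aj _ _) (S.h1 ▸ aj _ _) h
theorem odd {κ : G} (h : Act j κ 1) (ho : Odd (orderOf κ)) : Act j (g * κ * g⁻¹) 1 ∧ Act j (g⁻¹ * κ * g) 1 :=
  S.E.odd S.hb S.g1 S.g2 (S.h0 ▸ aj _ _) (S.h1 ▸ aj _ _) h ho
theorem bK : ev b ∉ K := by rcases S.hb with rfl | rfl <;> exact niK _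
theorem cP {κ : G} (h : Act j κ 1) (h' : Act j (g⁻¹ * κ * g) 1) (q : P) : Commute κ (j q) := by
  by_cases hq : q ∈ K
  · exact h.cF hq (Commute.one_left _)
  · rw [← inv_mul_cancel_right q (ev b), map_mul, ← S.h1]
    exact (h.cF (mulK hq (mt inv_mem_iff.1 S.bK)) (Commute.one_left _)).mul_right (by
      simpa [mul_assoc] using (h'.cF (inK [6]) (Commute.one_left _)).map (MulAut.conj g))
theorem kcase {κ : G} (h : Act j κ 1) : Act j (g⁻¹ * κ * g) 1 ∨ Act j (g⁻¹ * (κ * j c) * g) 1 ∨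
    (κ * j (ev [4]) * κ⁻¹ = j (ev [4] * c) ∧ Act j (g⁻¹ * (κ * κ * j c) * g) 1) := by
  obtain ⟨u, hu, a⟩ := S.E.kc' S.hb S.g1 S.g2 (S.h0 ▸ aj _ _) (S.h1 ▸ aj _ _) h
  have e : Act j (g⁻¹ * j c * g) (ev [8]) := by rw [← S.g2]; simpa [mul_assoc] using aj j (ev [8])
  have d : cmp (u ++ [6]) ([6, 8] ++ u) = true → cmp (u ++ u ++ [8]) [10, 10] = true →
      κ * j (ev [4]) * κ⁻¹ = j (ev [4] * c) ∧ Act j (g⁻¹ * (κ * κ * j c) * g) 1 := fun e1 e2 => by
    have e3 : κ * j (ev b) * κ⁻¹ = j (ev b * c) := by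
      have := a _ (inK [6])
      rw [cj _ _ _ e1, ← ml [6] [8] [6, 8], map_mul] at this
      rw [map_mul, ← S.h1, ← S.g2, conj_mul, ← this]; group
    refine ⟨?_, ?_⟩
    · rcases S.hb with rfl | rfl
      · exact e3
      · rw [← ml [4, 8] [8] [4], map_mul, ← conj_mul, e3, h _ (inK _), ← map_mul, one_mul, inv_one, mul_one, mul_assoc,
          ← (cen _).eq, mul_assoc]
    · have := ((a.mul a).mul e).congr (r := 1) (by
        rw [← evW_append, ml _ _ _ e2, ev_c, ψ_c, map_one])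
      simpa [mul_assoc] using this
  simp only [s9U, List.mem_cons, List.not_mem_nil, or_false] at hu
  rcases hu with rfl | rfl | rfl | rfl
  · exact .inl a
  · exact .inr (.inl (by simpa [mul_assoc, -evW_cons, ml [8] [8] []] using a.mul e))
  all_goals exact .inr (.inr (d (by decide +kernel) (by decide +kernel)))
theorem gz {u : List ℕ} (hu : u = [4] ∨ u = [4, 8]) : ∃ y ∈ K, j y = g * j (ev u) * g⁻¹ := by
  obtain ⟨q, a⟩ := S.E.act (St.gg S.g1 S.g2)
  have e : j (q * ev [6] * q⁻¹) = g * j (ev b) * g⁻¹ := by rw [← a _ (inK _), ← S.h1]; group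
  have e' : j (q * ev [6] * q⁻¹ * c) = g * j (ev (b ++ [8])) * g⁻¹ := by
    rw [map_mul, e, ← S.g2, conj_mul, ← map_mul, ev, ev, ev, evW_append]
  have m : q * ev [6] * q⁻¹ ∈ K := conjK.2 (inK _)
  rcases S.hb with rfl | rfl <;> rcases hu with rfl | rfl
  exacts [⟨_, m, e⟩, ⟨_, K.mul_mem m cK, e'⟩, ⟨_, K.mul_mem m cK, eqv ([4, 8] ++ [8]) [4] ▸ e'⟩, ⟨_, m, e⟩]
theorem hT (x : G) (h : Commute (x * j c * x⁻¹) (j c)) : ∃ q, j q = x * j c * x⁻¹ := by
  obtain ⟨r, a⟩ := S.E.act h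
  by_cases hr : r ∈ K
  · by_cases e : x * j c * x⁻¹ = j c
    · exact ⟨c, e.symm⟩
    · obtain ⟨l, -, e⟩ := S.E.ip (isConj_iff.2 ⟨x, rfl⟩) a hr e
      exact ⟨_, e.symm⟩
  obtain ⟨k, -, u, hu, au⟩ := S.E.clsO a (S.E.sqc x) hr
  suffices ∃ q, j q = (j (ev u))⁻¹ * ((j k)⁻¹ * (x * j c * x⁻¹) * j k) by
    obtain ⟨q, e⟩ := this
    exact ⟨k * ev u * q * k⁻¹, by rw [map_mul, map_mul, e]; simp [mul_assoc]⟩
  have hd : IsConj (j c) (g * ((j k)⁻¹ * (x * j c * x⁻¹) * j k) * g⁻¹) := isConj_iff.2 ⟨g * (j k)⁻¹ * x, by group⟩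
  have hκ := (aj j (ev u)).inv.mul au
  generalize (j k)⁻¹ * (x * j c * x⁻¹) * j k = d at *
  rw [inv_mul_cancel] at hκ
  obtain ⟨y, hy, ey⟩ := S.gz hu
  obtain ⟨i, hi, ai⟩ := S.kc hκ
  have iK : ev i ∈ K := by
    simp only [s9U, List.mem_cons, List.not_mem_nil, or_false] at hi
    rcases hi with rfl | rfl | rfl | rfl <;> exact inK _
  obtain ⟨m, em⟩ : ∃ m, j m = g * ((j (ev u))⁻¹ * d) * g⁻¹ := by
    obtain ⟨l, e⟩ : ∃ l, g * d * g⁻¹ = j l := by
      by_cases e : g * d * g⁻¹ = j c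
      · exact ⟨_, e⟩
      · obtain ⟨l, -, e⟩ := S.E.ip hd (by simpa [ey, mul_assoc] using (aj j y).mul ai) (K.mul_mem hy iK) e
        exact ⟨_, e⟩
    exact ⟨y⁻¹ * l, by rw [map_mul, map_inv, ey, ← e]; group⟩
  generalize (j (ev u))⁻¹ * d = κ at *
  have z : ∀ {v w}, g * j v * g⁻¹ = j w → m = w → ∃ q, j q = κ := fun e e' =>
    ⟨_, (MulAut.conj g).injective (e.trans (e' ▸ em))⟩
  have z1 : g * j 1 * g⁻¹ = j 1 := by simp
  have z2 : g * j (c * ev [8]) * g⁻¹ = j (ev [8] * c) := by rw [map_mul, ← conj_mul, S.g1, S.g2, ← map_mul]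
  have n : ev i * ev i = ev [8] * c → ∃ q, j q = κ := fun e => by
    have e1 : m * m = ev [8] * c := by
      rcases eq_of_ψ (S.E.uniq (aj j m) (em ▸ ai)) with rfl | rfl
      exacts [e, by rw [(cen _).symm.mul_mul_mul_comm, c_sq, mul_one, e]]
    have e2 : j (c * ev [8]) = κ * κ := (MulAut.conj g).injective (z2.trans (by
      rw [← e1, map_mul, em, map_mul]; rfl))
    have := S.E.uniq (aj j _) (e2 ▸ hκ.mul hκ)
    rw [map_mul, ψ_c, one_mul, one_mul, map_one] at this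
    exact absurd this (ψ_ne _ (by decide +kernel) (by decide +kernel))
  simp only [s9U, List.mem_cons, List.not_mem_nil, or_false] at hi
  rcases hi with rfl | rfl | rfl | rfl
  · exact (eq_of_ψ (S.E.uniq (aj j m) (em ▸ ai))).elim (z z1) fun e => z S.g2 (e.trans (one_mul c))
  · exact (eq_of_ψ (S.E.uniq (aj j m) (em ▸ ai))).elim (z S.g1) (z z2)
  all_goals exact n (ev_s ▸ ml _ _ _)
theorem od (x : G) (r : P) (h : Commute x (j c)) (h5 : x ^ 5 = 1) (e : x * (j r * (x * x)) = j r) : ∃ q, j q = x := by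
  obtain ⟨q, a⟩ := S.E.act (h.pow_left 3)
  have a2 := a.mul a
  rw [← pow_add, pow_succ, h5, one_mul] at a2
  obtain ⟨κ, ek⟩ : ∃ κ, x = j (q * q) * κ := ⟨_, (mul_inv_cancel_left _ _).symm⟩
  have hq := sqK q
  generalize q * q = q at *
  have hκ : Act j κ 1 := by simpa [ek] using (aj j q).inv.mul a2
  have c0 := (hκ.cF hq (Commute.one_left _)).symm
  have k5 : κ ^ 5 = j (q ^ 5)⁻¹ := by
    rw [map_inv, eq_inv_iff_mul_eq_one, mul_eq_one_comm, map_pow, ← c0.mul_pow, ← ek, h5]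
  have k10 := S.E.FK (K.inv_mem (K.pow_mem hq 5)) (by simpa only [k5, one_pow] using hκ.pow 5)
  rw [← k5, ← pow_add] at k10
  have e6 : x = j (q ^ 6) * κ ^ 6 := by rw [map_pow, ← c0.mul_pow, ← ek, pow_succ, h5, one_mul]
  have h6 : Act j (κ ^ 6) 1 := by simpa using hκ.pow 6
  have k30 : (κ ^ 6) ^ 5 = 1 := by rw [← pow_mul, show 6 * 5 = (5 + 5) * 3 from rfl, pow_mul, k10, one_pow]
  generalize κ ^ 6 = κ at *
  generalize q ^ 6 = q at *
  have c1 := S.cP h6 (S.odd h6 (Odd.of_dvd_nat (by decide) (orderOf_dvd_of_pow_eq_one k30))).2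
  have e3 : j ((q * r * q * q)⁻¹ * r) = κ ^ 3 := by
    rw [map_mul, map_inv, inv_mul_eq_iff_eq_mul, ← e, e6, ← mul_assoc (j q * κ), mul_assoc _ κ, (c1 r).eq,
      (c1 q).mul_mul_mul_comm, ← mul_assoc (j q), ((c1 q).mul_right (c1 q)).mul_mul_mul_comm]
    simp [pow_succ, mul_assoc]
  have a3 : Act j (κ ^ 3) 1 := by simpa using h6.pow 3
  have := S.E.FK (K_of_ψ (S.E.uniq (aj j _) (e3 ▸ a3)) K.one_mem) (e3 ▸ a3)
  rw [e3, ← pow_add, pow_succ, k30, one_mul] at this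
  exact ⟨q, by rw [e6, this, mul_one]⟩
/-- the largest subgroup of odd order of the centraliser of 2.HS -/
def W (j : P →* G) (g : G) : Subgroup G where
  carrier := {κ | Act j κ 1 ∧ Act j (g⁻¹ * κ * g) 1}
  one_mem' := ⟨Act.one, by simpa using Act.one⟩
  mul_mem' := fun {a b} h h' => ⟨by simpa using h.1.mul h'.1, by simpa [mul_assoc] using h.2.mul h'.2⟩
  inv_mem' := fun {a} h => ⟨by simpa using h.1.inv, by simpa [mul_assoc] using h.2.inv⟩
theorem ng (h : Commute g⁻¹ (j c)) : False :=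
  S.E.nc (g := g⁻¹) (v := [8]) (by rw [inv_inv, S.g1]; exact aj _ _) h
theorem W2 {w : G} (h : w ∈ W j g) (e : w * w = 1) : w = 1 := by
  by_contra hn
  exact S.ng (S.E.ti e hn h.1 (by simpa using h.2))
theorem not_tw [Finite G] : b ≠ [4, 8] := by
  rintro rfl
  have od : ∀ w ∈ W j g, ∀ x, Odd (orderOf (x * w * x⁻¹)) := fun w hw x => by
    rw [H9.orderOf_conj]
    exact Nat.not_even_iff_odd.1 fun h => H9.ne_one_of_orderOf_two (H9.orderOf_pow_half h)
      (S.W2 (pow_mem hw _) (H9.mul_self_of_orderOf_two (H9.orderOf_pow_half h)))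
  have nt : ∀ {x}, Commute x (j c) → x ∈ Subgroup.normalizer (W j g : Set G) := fun {x} h =>
    Subgroup.mem_normalizer_fintype fun w hw => by
      obtain ⟨q, a⟩ := S.E.act h
      exact ⟨a.ker hw.1, (S.odd (a.ker hw.1) (od w hw x)).2⟩
  have gM : g ∈ Subgroup.normalizer (W j g : Set G) := Subgroup.mem_normalizer_fintype fun w hw =>
    ⟨(S.odd hw.1 (by simpa using od w hw 1)).1, by simpa [mul_assoc] using hw.1⟩
  set M := Subgroup.normalizer (W j g : Set G)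
  let J : P →* M := j.codRestrict M fun q => nt ((cen q).map j)
  let π := QuotientGroup.mk' ((W j g).subgroupOf M)
  have lf : ∀ {a : M} {q}, a * a = 1 → q * q = 1 → π a = π (J q) → a = j q := fun {a q} a2 q2 h => by
    obtain ⟨w, hw, e⟩ := (QuotientGroup.mk'_eq_mk' _).1 h.symm
    have e' : j q * w = a := congrArg Subtype.val e
    have : (w : G) = 1 := S.W2 hw (by
      have := congrArg Subtype.val a2
      rwa [Subgroup.coe_mul, ← e', (S.cP (κ := w) hw.1 hw.2 q).mul_mul_mul_comm, ← map_mul, q2, map_one, one_mul] at this)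
    rw [← e', this, mul_one]
  have cq : ∀ x : M, x * J c * x⁻¹ * (x * J c * x⁻¹) = 1 := fun x => by rw [conj_mul, ← map_mul, c_sq]; simp
  have lc : ∀ {x : M}, Commute (π x) (π (J c)) → Commute (x : G) (j c) := fun {x} h =>
    mul_inv_eq_iff_eq_mul.1 (lf (cq x) c_sq (by rw [map_mul, map_mul, h.eq, map_inv, mul_inv_cancel_right]))
  have tr : ∀ {q r}, g * j q * g⁻¹ = j r → π ⟨g, gM⟩ * π.comp J q * (π ⟨g, gM⟩)⁻¹ = π.comp J r := fun e =>
    congrArg π (Subtype.ext e : ⟨g, gM⟩ * J _ * (⟨g, gM⟩ : M)⁻¹ = J _)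
  have p1 : ∀ {x : M}, (x : G) ∈ W j g → π x = 1 := fun h => (QuotientGroup.eq_one_iff _).2 h
  have pc : π (J c) * π (J c) = 1 := by rw [← map_mul, ← map_mul, c_sq, map_one, map_one]
  refine not_tw' (j := π.comp J) ((injective_iff_map_eq_one _).2 fun q e => ?_) (fun x h => ?_) (fun x h => ?_)
    (fun h => ?_) ?_ (tr S.g1) (tr S.g2) (tr S.h0) (tr S.h1)
  · have e : j q ∈ W j g := (QuotientGroup.eq_one_iff (J q)).1 e
    rcases ker_ψ ((S.E.uniq (aj j q) e.1).trans (map_one ψ)) with rfl | rfl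
    exacts [rfl, absurd (S.W2 e S.E.tt) S.E.t1]
  · obtain ⟨x, rfl⟩ := QuotientGroup.mk'_surjective _ x
    obtain ⟨q, κ, e, a⟩ := S.dec (lc h)
    have e' : π.comp J q * π ⟨κ, nt a.ct⟩ = π x := congrArg π (Subtype.ext e : J q * ⟨κ, nt a.ct⟩ = x)
    rcases S.kcase a with k | k | ⟨k1, k⟩
    · exact ⟨q, _, e', .inl (p1 ⟨a, k⟩)⟩
    · refine ⟨q * c, 1, ?_, .inl rfl⟩
      have := p1 (x := ⟨κ, nt a.ct⟩ * J c) ⟨a.mul1 S.E.at1, k⟩
      rw [map_mul] at this
      rw [mul_one, map_mul, ← e', eq_inv_of_mul_eq_one_left this, inv_eq_of_mul_eq_one_left pc]; rfl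
    · refine ⟨q, _, e', .inr ⟨?_, fun y hy => Commute.map (f := π)
        (Subtype.ext (a.cF hy (Commute.one_left _)) : (⟨κ, nt a.ct⟩ * J y : M) = J y * ⟨κ, nt a.ct⟩),
        congrArg π (Subtype.ext k1 : ⟨κ, nt a.ct⟩ * J _ * (⟨κ, nt a.ct⟩ : M)⁻¹ = J _)⟩⟩
      have := p1 (x := ⟨κ, nt a.ct⟩ * ⟨κ, nt a.ct⟩ * J c) ⟨(a.mul1 a).mul1 S.E.at1, k⟩
      rw [map_mul, map_mul] at this
      exact (eq_inv_of_mul_eq_one_left this).trans (inv_eq_of_mul_eq_one_left pc)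
  · obtain ⟨x, rfl⟩ := QuotientGroup.mk'_surjective _ x
    obtain ⟨q, e⟩ := S.hT x (lc (x := x * J c * x⁻¹) h)
    exact ⟨q, congrArg π (Subtype.ext e : J q = x * J c * x⁻¹)⟩
  · obtain ⟨x, e⟩ := isConj_iff.1 h
    obtain ⟨x, rfl⟩ := QuotientGroup.mk'_surjective _ x
    exact S.E.not_s (isConj_iff.2 ⟨x, lf (cq x) (ml _ _ []) e⟩)
  · obtain ⟨y, -, e⟩ := S.gz (.inl rfl)
    exact ⟨y, (tr e.symm).symm⟩
theorem exists_hom [Finite G] : ∃ φ : HN →* G, Function.Injective φ ∧ (∀ q, φ (θ q) = j q) ∧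
    (∀ x, Commute x (j c) → x ∈ Subgroup.normalizer (φ.range : Set G)) ∧
    ∀ a, a * a = 1 → (∀ h, Commute a (φ h)) → a = 1 := by
  obtain rfl := S.hb.resolve_right S.not_tw
  obtain ⟨T, T5, Tx, Ty, Tz, Tg⟩ := exists_T' S.inj S.od S.E.not_s ((S.gz (.inl rfl)).imp fun _ h => h.2)
    S.g1 S.g2 S.h0 S.h1
  obtain ⟨φ, e⟩ := homU pres (y := Function.update (fun i => j (p i)) 3 T) (((model.rels.map j).congr (m := 3)
    (fun i hi => Function.update_of_ne hi.ne _ _) (by decide +kernel)).append fun w hw => by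
      simp only [List.mem_cons, List.not_mem_nil, or_false] at hw
      rcases hw with rfl | rfl | rfl | rfl <;> simp [xl]
      · simpa [pow_succ, mul_assoc] using T5
      · rw [Tx, inv_mul_cancel]
      · simp [Ty.eq]
      · simpa [pow_succ, mul_assoc] using Tz)
  have a : ∀ q, φ (θ q) = j q := hom_ext_gen model.gen_top (f := φ.comp θ) fun i hi => by
    rw [MonoidHom.comp_apply, hθ i hi, e i (by omega), Function.update_of_ne hi.ne]
  have e3 : φ (x 3) = T := (e 3 (by omega)).trans (Function.update_self ..)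
  have := simple
  refine ⟨φ, inj_of_simple φ (g := θ c) (by rw [a]; exact S.E.t1), a, fun y h => ?_, fun y y2 h => ?_⟩
  · obtain ⟨q, κ, rfl, hκ⟩ := S.dec h
    refine Subgroup.mul_mem _ (Subgroup.le_normalizer ⟨_, a q⟩) (Subgroup.mem_normalizer_fintype ?_)
    rintro _ ⟨h, rfl⟩
    refine gen_le (K := φ.range.comap ((MulAut.conj κ).toMonoidHom.comp φ)) (fun i hi => ?_) (pres.top.ge trivial : h ∈ _)
    show κ * φ (x i) * κ⁻¹ ∈ φ.range
    rcases Nat.lt_succ_iff_lt_or_eq.1 hi with hi | rfl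
    · have k1 : ∀ {q}, Commute κ (j q) → κ * j q * κ⁻¹ ∈ φ.range := fun h => ⟨_, (a _).trans (by
        rw [h.eq, mul_inv_cancel_right])⟩
      rw [← hθ i hi, a]
      interval_cases i
      · exact k1 (hκ.cF (ev_x ▸ inK _) (Commute.one_left _))
      · exact k1 (hκ.cF (ev_y ▸ inK _) (Commute.one_left _))
      rcases S.kcase hκ with k | k | ⟨k, -⟩
      · exact k1 (S.cP hκ k _)
      · exact k1 (mul_inv_cancel_right κ (j c) ▸
          (S.cP (hκ.mul1 S.E.at1) k _).mul_left ((cen _).map j).symm.inv_left)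
      · exact ⟨_, (a _).trans (ev_z ▸ k).symm⟩
    obtain ⟨u, hu, b⟩ := S.kc hκ
    obtain ⟨n, en⟩ : ∃ n : ℕ, ev u * ev [22] * (ev u)⁻¹ = ev [22] ^ n := by
      simp only [s9U, List.mem_cons, List.not_mem_nil, or_false] at hu
      rcases hu with rfl | rfl | rfl | rfl
      exacts [⟨1, by simp⟩, ⟨4, (cj _ _ [22, 22, 22, 22]).trans (by simp [pow_succ, mul_assoc])⟩,
        ⟨2, (cj _ _ [22, 22]).trans (by simp [pow_succ])⟩, ⟨3, (cj _ _ [22, 22, 22]).trans (by simp [pow_succ, mul_assoc])⟩]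
    replace b := b _ (inK [22])
    rw [en, map_pow] at b
    refine ⟨x 3 ^ n, (MulAut.conj g).injective ?_⟩
    rw [map_pow, e3, map_pow, map_mul, map_mul, map_inv]
    simp only [MulAut.conj_apply]
    rcases Tg with e | e <;> rw [e]
    · exact b.symm
    · rw [← ml [22] [22] [22, 22], map_mul, ← conj_mul, b, (Commute.refl _).mul_pow]
  · by_contra hn
    have a1 : Act j y 1 := fun q _ => by rw [← a, (h _).eq]; simp [a]
    have := (S.E.ti (g := T) y2 hn a1 (by rwa [← e3, ← (h _).eq, mul_inv_cancel_right])).map (MulAut.conj g)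
    simp only [MulAut.conj_apply, S.g1] at this
    rcases Tg with e | e <;> rw [e] at this <;>
      exact nev (_ ++ [8]) ([8] ++ _) (by decide +kernel) ((evW_append ..).trans ((jcm S.inj this).eq.trans (evW_append ..).symm))
end Sw
end H54.HNT
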