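import Cfsg.Agent.Lib.HNT.KA

/-!
An extension `N` of `2^8.(A5 wr 2)` such that sixty of its involutions fix only one coset is the whole group.
-/

set_option autoImplicit false

namespace H15.HK

open Subgroup MulAction

variable {K : Type*} [Group K]

theorem mem_of_coprime {H : Subgroup K} {g : K} {m n : ℕ} (hm : g ^ m ∈ H) (hn : g ^ n ∈ H) (h : m.Coprime n) :
    g ∈ H := by
  have := mul_mem (zpow_mem hm (m.gcdA n)) (zpow_mem hn (m.gcdB n))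
  rwa [← zpow_natCast, ← zpow_natCast, ← zpow_mul, ← zpow_mul, ← zpow_add, ← Nat.gcd_eq_gcd_ab, h.gcd_eq_one,
    Nat.cast_one, zpow_one] at this

theorem exists_not_comm [Finite K] {r : ℕ} (hr : r.Prime) {M : Subgroup K} {x : K} (h : r ∣ (H54.clsIn M x).ncard) :
    ∃ g ∈ M, ∃ a : ℕ, g ^ r ^ a = 1 ∧ g * x ≠ x * g := by
  have := Fact.mk hr
  obtain ⟨R⟩ : Nonempty (Sylow r M) := inferInstance
  by_contra hn
  push Not at hn
  have h1 : (R : Subgroup M) ≤ (M ⊓ centralizer {x}).subgroupOf M := fun g hg => by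
    obtain ⟨a, e⟩ := R.2 ⟨g, hg⟩
    exact ⟨g.2, mem_centralizer_singleton_iff.2 (hn g g.2 a (congrArg (fun t => t.1.1) e))⟩
  have h2 := ((M ⊓ centralizer {x}).subgroupOf M).card_mul_index
  rw [Nat.card_congr (subgroupOfEquivOfLe inf_le_left).toEquiv, ← H54.ncard_clsIn_mul M x, mul_comm] at h2
  exact R.not_dvd_index (h.trans (Nat.eq_of_mul_eq_mul_right Nat.card_pos h2 ▸ index_dvd_of_le h1))

/-- `N` acts on `V` nearly like `N₀` -/
structure Ext (N₀ N V : Subgroup K) (D : Set K) : Prop where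
  le : V ≤ N
  nrm : ∀ n ∈ N, ∀ v ∈ V, n * v * n⁻¹ ∈ V
  Dc : ∀ n ∈ N, ∀ d ∈ D, n * d * n⁻¹ ∈ D
  act : ∀ n ∈ N, ∃ m ∈ N₀, ∀ v ∈ V, n * n * v * (n * n)⁻¹ = m * v * m⁻¹
  two : ∀ b ∈ N, b ∉ V → b * b = 1 → Nat.card (V ⊓ centralizer {b} : Subgroup K) ≤ 16 ∨ ∃ d ∈ D, d * b = b * d

theorem Loc.step' [Finite K] {N₀ N V U : Subgroup K} {D : Set K} (L : Loc N₀ V D) (X : Ext N₀ N V D)
    (h1 : ∀ d ∈ D, ∀ g, g * d * g⁻¹ ∈ N → g ∈ N) (hU : U ≤ V)
    (mx : ∀ g ∈ centralizer (U : Set K), ∀ v ∈ V, v ∉ U → g * v * g⁻¹ ∈ V → g ∈ N) {g v : K}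
    (hg : g ∈ centralizer (U : Set K)) (hv : v ∈ V) (h : v ∉ U) (hb : g * v * g⁻¹ ∈ N) : g ∈ N := by
  by_contra hN
  have VC : ∀ a ∈ V, a ∈ centralizer (U : Set K) := fun a ha u hu => comm_of_sq L.sq (hU hu) ha
  have cC : ∀ a ∈ V, g * a * g⁻¹ ∈ centralizer (U : Set K) := fun a ha =>
    mul_mem (mul_mem hg (VC a ha)) (inv_mem hg)
  have b2 : g * v * g⁻¹ * (g * v * g⁻¹) = 1 := by rw [conj_mul, L.sq v hv]; simp
  obtain ⟨f, f1, f2, f3⟩ := free L.sq L.cV b2 (X.nrm _ hb) ((X.two _ hb (fun e => hN (mx g hg v hv h e)) b2).resolve_right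
    fun ⟨d, hd, e⟩ => hN (inv_mem_iff.1 (h1 d hd _ (mx _ (mul_mem (mul_mem (inv_mem hg) (VC d (L.DV d hd)))
      (inv_mem (inv_mem hg))) v hv h (by
        rw [show g⁻¹ * d * g⁻¹⁻¹ * v * (g⁻¹ * d * g⁻¹⁻¹)⁻¹ = g⁻¹ * (d * (g * v * g⁻¹) * d⁻¹) * g by group, e]
        simpa [mul_assoc] using hv)))))
  have hA : ∀ a : (U.subgroupOf V).comap f, g⁻¹ * a.1.1 * g ∈ N := fun a => by
    refine mx _ (mul_mem (mul_mem (inv_mem hg) (VC _ a.1.2)) hg) v hv h ?_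
    have e : g⁻¹ * a.1.1 * g * v * (g⁻¹ * a.1.1 * g)⁻¹ = g⁻¹ * ((f a.1).1 * g) * v := by
      rw [f1]
      simp only [mul_assoc, mul_inv_rev, inv_inv, inv_mul_cancel, mul_one,
        inv_eq_of_mul_eq_one_right (L.sq _ a.1.2)]
    rw [e, hg (f a.1).1 a.2, inv_mul_cancel_left]
    exact mul_mem (f a.1).2 hv
  let : MulAction ((U.subgroupOf V).comap f) D :=
    { smul := fun a d => ⟨_, X.Dc _ (hA a) d d.2⟩
      one_smul := fun d => Subtype.ext (show g⁻¹ * 1 * g * d * (g⁻¹ * 1 * g)⁻¹ = d by group)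
      mul_smul := fun a c d => Subtype.ext (show g⁻¹ * (a.1.1 * c.1.1) * g * d * (g⁻¹ * (a.1.1 * c.1.1) * g)⁻¹ =
        g⁻¹ * a.1.1 * g * (g⁻¹ * c.1.1 * g * d * (g⁻¹ * c.1.1 * g)⁻¹) * (g⁻¹ * a.1.1 * g)⁻¹ by group) }
  have hs : ∀ d : D, stabilizer ((U.subgroupOf V).comap f) d = (U.subgroupOf V).subgroupOf _ := fun d => by
    ext a
    rw [mem_stabilizer_iff, Subtype.ext_iff]
    show g⁻¹ * a.1.1 * g * d * (g⁻¹ * a.1.1 * g)⁻¹ = d ↔ a.1.1 ∈ U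
    refine ⟨fun e => by_contra fun ha => hN (h1 d d.2 g (mx _ (cC d (L.DV d d.2)) _ a.1.2 ha ?_)), fun ha => ?_⟩
    · rw [show g * d * g⁻¹ * a.1.1 * (g * d * g⁻¹)⁻¹ = a.1.1 by nth_rw 1 [← e]; group]
      exact a.1.2
    · rw [mul_assoc g⁻¹, hg _ ha, inv_mul_cancel_left, comm_of_sq L.sq a.1.2 (L.DV d d.2),
        mul_inv_cancel_right]
  have h2 : U.subgroupOf V ≤ f.range := fun a ha => f3 a (cC v hv _ ha)
  have h3 : U.subgroupOf V ≤ (U.subgroupOf V).comap f := fun a ha => by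
    rw [mem_comap, mem_subgroupOf, f1, ← cC v hv a.1 ha, mul_inv_cancel_right]
    exact mul_mem ha ha
  have h4 := f.ker.card_mul_index
  have h5 := f.range.card_mul_index
  rw [index_ker, L.cV, f2] at h4
  rw [L.cV, show Nat.card f.range = 16 by omega] at h5
  have h6 := (relIndex_mul_index h3).trans (relIndex_mul_index h2).symm
  rw [index_comap, mul_comm, show f.range.index = 16 by omega] at h6
  have h7 := dvd_ncard (X := D) fun d => (congrArg index (hs d)).trans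
    (Nat.eq_of_mul_eq_mul_left (Nat.pos_of_ne_zero index_ne_zero_of_finite) h6)
  rw [Nat.card_coe_set_eq, L.cD] at h7
  omega

theorem Loc.top' [Finite K] {N₀ N V : Subgroup K} {D : Set K} (L : Loc N₀ V D) (X : Ext N₀ N V D)
    (h1 : ∀ d ∈ D, ∀ g, g * d * g⁻¹ ∈ N → g ∈ N) : N = ⊤ := by
  by_contra hN
  obtain ⟨g0, h0, mx0⟩ := Set.exists_max_image {g | g ∉ N}
    (fun g => Nat.card (V ⊓ V.comap (MulAut.conj g).toMonoidHom : Subgroup K)) (Set.toFinite _)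
    (not_forall.1 (mt (eq_top_iff' N).2 hN))
  obtain ⟨U, hU⟩ : ∃ U, U = V ⊓ V.comap (MulAut.conj g0).toMonoidHom := ⟨_, rfl⟩
  rw [← hU] at mx0
  have UV : U ≤ V := hU ▸ inf_le_left
  have U0 : ∀ u ∈ U, g0 * u * g0⁻¹ ∈ V := fun u hu => (hU ▸ hu).2
  have mx : ∀ g ∈ centralizer (U : Set K), ∀ v ∈ V, v ∉ U → g * v * g⁻¹ ∈ V → g ∈ N :=
    fun g hg v hv h e => by_contra fun h' => h ((eq_of_le_of_card_ge (le_inf UV fun u hu =>
      show g * u * g⁻¹ ∈ V by rw [← hg u hu, mul_inv_cancel_right]; exact UV hu) (mx0 g h')).ge ⟨hv, e⟩)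
  have DU : ∀ d ∈ D, d ∉ U := fun d hd h => h0 (h1 d hd g0 (X.le (U0 d h)))
  obtain ⟨d, hd, d', hd', hd''⟩ := L.pure
  set C := centralizer (U : Set K)
  have VC : V ≤ C := fun a ha u hu => comm_of_sq L.sq (UV hu) ha
  have hc : g0⁻¹ * d * g0⁻¹⁻¹ ∈ C := fun u hu => by
    have := comm_of_sq L.sq (U0 u hu) (L.DV d hd)
    rw [← mul_right_inj g0, ← mul_left_inj g0⁻¹]
    simpa only [mul_assoc, inv_inv, mul_inv_cancel_left, mul_inv_cancel, mul_one] using this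
  have : (U.subgroupOf C).Normal := ⟨fun u hu g => by
    rw [mem_subgroupOf, coe_mul, coe_mul, ← g.2 u.1 hu, coe_inv, mul_inv_cancel_right]; exact hu⟩
  let π := QuotientGroup.mk' (U.subgroupOf C)
  have hk : π.ker = U.subgroupOf C := QuotientGroup.ker_mk' _
  have m1 : ∀ x : C, π x = 1 ↔ x.1 ∈ U := fun x => by rw [← MonoidHom.mem_ker, hk]; rfl
  have mM : ∀ x : C, π x ∈ (N.subgroupOf C).map π ↔ x.1 ∈ N := fun x => by
    rw [← mem_comap, comap_map_eq_self (H := N.subgroupOf C) (hk.le.trans (comap_mono (UV.trans X.le)))]; rfl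
  have hn : ∀ m ∈ (N.subgroupOf C).map π, ∀ x ∈ (V.subgroupOf C).map π, m * x * m⁻¹ ∈ (V.subgroupOf C).map π := by
    rintro _ ⟨n, hn, rfl⟩ _ ⟨v, hv, rfl⟩
    exact ⟨n * v * n⁻¹, X.nrm _ hn _ hv, by simp⟩
  have tr := @ti_conj _ _ _ ((N.subgroupOf C).map π) ((V.subgroupOf C).map π)
    (by rintro _ ⟨v, hv, rfl⟩; rw [← map_mul, show v * v = 1 from Subtype.ext (L.sq _ hv), map_one]) hn
    (map_mono (comap_mono X.le))
    (by
      rintro g _ ⟨v, hv, rfl⟩ h e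
      obtain ⟨g, rfl⟩ := QuotientGroup.mk'_surjective _ g
      rw [← map_inv π, ← map_mul π, ← map_mul π, mM] at e
      exact (mM g).2 (L.step' X h1 UV mx g.2 hv (mt (m1 v).2 h) e))
    (π ⟨_, hc⟩) (fun h => h0 (inv_mem_iff.1 (h1 d hd _ ((mM _).1 h))))
  have q : ∀ {d} (hd : d ∈ D), π ⟨d, VC (L.DV d hd)⟩ ∈ (V.subgroupOf C).map π ∧ π ⟨d, VC (L.DV d hd)⟩ ≠ 1 :=
    fun {d} hd => ⟨⟨_, L.DV d hd, rfl⟩, mt (m1 _).1 (DU d hd)⟩
  have e1 : H54.clsIn ((N.subgroupOf C).map π) (π ⟨d, VC (L.DV d hd)⟩) = ((V.subgroupOf C).map π : Set _) \ {1} := by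
    ext y
    refine ⟨?_, fun h => tr (q hd).1 (q hd).2 h.1 h.2⟩
    rintro ⟨m, hm, rfl⟩
    exact ⟨hn m hm _ (q hd).1, fun e => (q hd).2 (conj_eq_one_iff.1 e)⟩
  have e2 : ∀ r, r.Prime → r ≠ 2 → r ∣ Nat.card ((V.subgroupOf C).map π) - 1 →
      ∃ m ∈ N₀, m ∈ C ∧ orderOf m = r := fun r hr h2 e => by
    obtain ⟨_, ⟨g, hg, rfl⟩, a, e3, e4⟩ := exists_not_comm hr (M := (N.subgroupOf C).map π)
      (x := π ⟨d, VC (L.DV d hd)⟩) (by
        rwa [e1, Set.ncard_sdiff_singleton_of_mem (one_mem _), ← Nat.card_coe_set_eq, SetLike.coe_sort_coe])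
    obtain ⟨m, hm, e5⟩ := X.act g.1 hg
    have e6 : r ∣ orderOf m := by_contra fun e6 => e4 (congrArg π (Subtype.ext (Eq.symm (mem_of_coprime
      (H := centralizer (V : Set K)) (g := g) (m := 2 * orderOf m) (n := r ^ a) (fun v hv => ?_)
      (fun v hv => comm_of_sq L.sq hv (UV ((m1 (g ^ r ^ a)).1 ((map_pow π g _).trans e3))))
      (Nat.Coprime.pow_right a (Nat.Coprime.mul_left ((Nat.coprime_primes Nat.prime_two hr).2 h2.symm)
        ((Nat.Prime.coprime_iff_not_dvd hr).2 e6).symm)) d (L.DV d hd))) : (g * ⟨d, _⟩ : C) = ⟨d, _⟩ * g))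
    · refine ⟨m ^ (orderOf m / r), pow_mem hm _, pow_mem (fun u hu => ?_) _, orderOf_pow_orderOf_div (orderOf_pos m).ne' e6⟩
      rw [eq_comm, ← mul_inv_eq_iff_eq_mul, ← e5 u (UV hu), ← mul_mem g.2 g.2 u hu, mul_inv_cancel_right]
    · have : ∀ i : ℕ, ((g : K) * g) ^ i * v * (((g : K) * g) ^ i)⁻¹ = m ^ i * v * (m ^ i)⁻¹ := fun i => by
        induction i with
        | zero => simp
        | succ i ih =>
          rw [pow_succ', pow_succ', mul_inv_rev, mul_inv_rev m, ← mul_assoc, mul_assoc (g * g : K), mul_assoc (g * g : K),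
            ih, e5 _ (L.nrm _ (pow_mem hm i) v hv)]
          group
      rw [eq_comm, ← mul_inv_eq_iff_eq_mul, pow_mul, pow_two, this, pow_orderOf_eq_one]
      simp
  have e5 : Nat.card U * Nat.card ((V.subgroupOf C).map π) = 256 := by
    rw [← relIndex_ker, hk, relIndex_subgroupOf VC, ← Nat.card_congr (subgroupOfEquivOfLe UV).toEquiv,
      ← L.cV]
    exact card_mul_index _
  have e6 : Nat.card ((V.subgroupOf C).map π) ≠ 2 := fun e => by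
    obtain ⟨y, -, hy⟩ := (Nat.card_eq_two_iff' (1 : (V.subgroupOf C).map π)).1 e
    have k : ∀ {d} (hd : d ∈ D), π ⟨d, VC (L.DV d hd)⟩ = y := fun hd =>
      congrArg Subtype.val (hy ⟨_, (q hd).1⟩ fun e => (q hd).2 (congrArg Subtype.val e))
    have := k hd''
    rw [← k hd, show (⟨d * d', _⟩ : C) = ⟨d, VC (L.DV d hd)⟩ * ⟨d', VC (L.DV d' hd')⟩ from rfl, map_mul,
      mul_eq_left] at this
    exact (q hd').2 this
  have e7 : Nat.card ((V.subgroupOf C).map π) ≠ 1 := fun e =>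
    (q hd).2 (mem_bot.1 (card_eq_one.1 e ▸ (q hd).1))
  have e9 : 3 ∣ Nat.card ((V.subgroupOf C).map π) - 1 ∧ 16 ≤ Nat.card U := by
    generalize Nat.card ((V.subgroupOf C).map π) = k at *
    have : k ∈ Nat.divisors 256 := Nat.mem_divisors.2 ⟨Dvd.intro_left _ e5, by norm_num⟩
    rcases (by decide +kernel : ∀ k ∈ Nat.divisors 256, k ≠ 2 → k ≠ 1 → k = 4 ∨ k = 16 ∨
      ∃ r ∈ [7, 17, 31, 127], r.Prime ∧ r ≠ 2 ∧ r ∣ k - 1 ∧ ¬ r ∣ 1843200) k this e6 e7 with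
      rfl | rfl | ⟨r, -, h1, h2, h3, h4⟩
    · omega
    · omega
    · obtain ⟨m, hm, -, rfl⟩ := e2 r h1 h2 h3
      exact absurd (L.cN ▸ orderOf_dvd_natCard _ hm) h4
  obtain ⟨g, hg, gC, o3⟩ := e2 3 Nat.prime_three (by decide) e9.1
  have UL : U ≤ V ⊓ centralizer {g} := fun u hu => ⟨UV hu, mem_centralizer_singleton_iff.2 (gC u hu)⟩
  obtain ⟨h2, d, h3, h4⟩ := L.three g hg o3 (e9.2.trans (card_le_of_le UL))
  exact DU d h3 ((eq_of_le_of_card_ge UL (h2.trans e9.2)).symm ▸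
    ⟨L.DV d h3, mem_centralizer_singleton_iff.2 h4⟩)

end H15.HK
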