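import Cfsg.Agent.Lib.HNT.K
import Cfsg.Agent.Lib.HNT.StK
import Cfsg.Agent.Lib.HNT.StE0
import Cfsg.Agent.Lib.HNT.RecA
/-!
A finite group in which the normaliser of a subgroup HN contains the centraliser of a 2A-involution is equal
to this normaliser.
-/
set_option autoImplicit false
set_option maxRecDepth 100000
set_option maxHeartbeats 400000
set_option linter.unusedSectionVars false
namespace H15K
open H54 H54.HN Cfsg.Spor H15.HK Subgroup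
local notation "𝔰" => yg 11
local notation "𝔠" => yg 3
theorem centY {g : HN} (h : g * 𝔰 = 𝔰 * g) : g ∈ Y := by
  simpa using cent_s (ψ := MonoidHom.id _) Function.injective_id (fun g _ => ⟨g, rfl⟩) h
theorem nc0 : ¬ IsConj 𝔠 𝔰 := not_conj (ψ := MonoidHom.id _) Function.injective_id fun g _ => ⟨g, rfl⟩
theorem c_sq' : 𝔠 * 𝔠 = 1 := q_sq 3 (by decide)
theorem cY : 𝔠 ∈ Y := mem_gen yg (by decide)
theorem β_c (β : MulAut HN) : IsConj (β 𝔠) 𝔠 := by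
  obtain ⟨g, e⟩ := norm1 β
  exact isConj_iff.2 ⟨g, θ_c ▸ e⟩
theorem β_Y {β : MulAut HN} (hs : β 𝔰 = 𝔰) {y : HN} (h : y ∈ Y) : β y ∈ Y :=
  centY (by rw [← hs, ← map_mul, s_com h, map_mul])
theorem β_D {β : MulAut HN} (hs : β 𝔰 = 𝔰) {m : HN} (hm : m ∈ Y) : ∃ n ∈ Y, β (m * 𝔠 * m⁻¹) = n * 𝔠 * n⁻¹ := by
  rcases inv_Y (β_Y hs cY) (by rw [← map_mul, c_sq', map_one]) with h | ⟨n, hn, h | h | h⟩
  · exact absurd ((β_c β).symm.trans h) nc0
  · exact absurd ((map_eq_one_iff β β.injective).1 (conj_eq_one_iff.1 h)) c_one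
  · exact ⟨β m * n⁻¹, mul_mem (β_Y hs hm) (inv_mem hn), by
      nth_rw 2 [← h]; rw [map_mul, map_mul, map_inv]; group⟩
  · refine absurd (((β_c β).symm.trans (isConj_iff.2 ⟨n * β (yg 10), ?_⟩)).trans z_s) nc0
    rw [mul_inv_rev, ← mul_assoc, mul_assoc n, mul_assoc n, ← map_inv, ← map_mul, ← map_mul, q7, map_mul, hs, ← h,
      mul_assoc (n * _), s_com (inv_mem hn)]
    simp only [mul_assoc]
theorem mk_D {y : Y} : QuotientGroup.mk' Z y ∈ DD gg ↔ ∃ n ∈ Y, (y : HN) = n * 𝔠 * n⁻¹ := by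
  rw [dat.mem_D]
  constructor
  · rintro ⟨n, e⟩
    obtain ⟨n, rfl⟩ := QuotientGroup.mk'_surjective Z n
    rcases mk_eq (a := y) (b := n * yy 3 * n⁻¹) e.symm with e | e
    · exact ⟨n, n.2, e⟩
    · refine ⟨n * yg 10, mul_mem n.2 (mem_gen yg (by decide)), e.trans ?_⟩
      rw [mul_inv_rev, ← mul_assoc, mul_assoc n.1, mul_assoc n.1, q7, mul_assoc n.1, mul_assoc 𝔠, ← s_com (inv_mem n.2)]
      simp only [← mul_assoc]; rfl
  · rintro ⟨n, hn, e⟩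
    exact ⟨QuotientGroup.mk' Z ⟨n, hn⟩, congrArg (QuotientGroup.mk' Z) (Subtype.ext e.symm : ⟨n, hn⟩ * yy 3 * ⟨n, hn⟩⁻¹ = y)⟩
theorem outer {β : MulAut HN} (hs : β 𝔰 = 𝔰) (h2 : ∀ y ∈ Y, β (β y) = y) :
    (∃ g, ∀ a, β a = g * a * g⁻¹) ∨ ∃ n ∈ Y, β (n * 𝔠 * n⁻¹) = n * 𝔠 * n⁻¹ := by
  obtain ⟨g, h0, h1, h3⟩ := norm3 β
  obtain ⟨φ, e⟩ : ∃ φ, φ = MulAut.conj g * β := ⟨_, rfl⟩
  rw [← e] at h0 h1 h3
  have eβ : ∀ a, β a = g⁻¹ * φ a * g⁻¹⁻¹ := fun a => by simp [e, mul_assoc]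
  rcases h3 with h3 | h3
  · obtain ⟨h, e⟩ := inner_of_fix3 h0 h1 h3
    exact .inl ⟨g⁻¹ * h, fun a => by rw [eβ, e]; group⟩
  have fK : ∀ q ∈ K, φ (θ q) = θ q := fun q hq => gen_le (K := (φ.toMonoidHom.comp θ).eqLocus θ) (fun i hi => by
    have b : φ (θ (p 1)) = θ (p 1) := hθ 1 (by norm_num) ▸ h1
    interval_cases i
    · exact k0 ▸ (hθ 0 (by norm_num) ▸ h0 : φ (θ (p 0)) = θ (p 0))
    · exact k1 ▸ b
    have a : φ (θ (p 2)) = θ (p 2 * c) := by rw [map_mul, hθ 2 (by norm_num), h3]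
    show φ (θ (p 2 * (p 1 * (p 2 * 1)))) = θ (p 2 * (p 1 * (p 2 * 1)))
    conv_lhs => rw [mul_one, map_mul θ, map_mul θ, map_mul φ, map_mul φ, a, b, ← map_mul θ, ← map_mul θ, mul_assoc,
      ← (HNT.cen _).eq, mul_assoc, mul_assoc, c_sq]) hq
  have fO : ∀ {i j}, nthW yE j = [2 * i] → wfL 3 [nthW kE i] = true → evW sg (nthW kE i) ≠ 1 →
      φ (yg j) = yg j * 𝔠 := fun {i j} a b d => by
    have : evW p (nthW kE i) ∉ K := fun h => d (by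
      rw [← evW_congr hσ (wfL_spec b List.mem_cons_self), ← map_evW]; exact K_le h)
    rw [← θ_k a b, ← inv_mul_cancel_right (evW p _) (p 2), map_mul, map_mul,
      fK _ (HNT.mulK this (mt inv_mem_iff.1 (HNT.ev_z ▸ HNT.niK [4]))), hθ 2 (by norm_num), h3, θ_c, mul_assoc]
  have fs : φ 𝔰 = 𝔰 := θ_k (i := 16) (j := 11) rfl (by decide) ▸ fK _ (mem_K (by decide))
  have gY : g⁻¹ ∈ Y := centY (mul_inv_eq_iff_eq_mul.1 (by rw [← fs, ← eβ, hs, fs]))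
  let f0 : Y →* Y := (φ.toMonoidHom.comp Y.subtype).codRestrict Y fun y => β_Y fs y.2
  let f := QuotientGroup.map Z Z f0 (zpowers_le.2 (mem_Z.2 (.inr fs)))
  have k : ∀ y : Y, QuotientGroup.mk' Z ⟨_, gY⟩ * f (QuotientGroup.mk' Z y) * (QuotientGroup.mk' Z ⟨_, gY⟩)⁻¹ =
      QuotientGroup.mk' Z ⟨_, β_Y hs y.2⟩ := fun y =>
    congrArg (QuotientGroup.mk' Z) (Subtype.ext (eβ y).symm : ⟨_, gY⟩ * f0 y * ⟨_, gY⟩⁻¹ = (⟨_, β_Y hs y.2⟩ : Y))
  obtain ⟨u, hu, e⟩ := dat.out (f := f) (congrArg (QuotientGroup.mk' Z) (Subtype.ext (θ_c ▸ fK c HNT.cK : φ 𝔠 = 𝔠) : f0 (yy 3) = yy 3))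
    (fun a a0 a7 => congrArg (QuotientGroup.mk' Z) (Subtype.ext (by
      interval_cases a
      exacts [fO (i := 9) rfl (by decide) (by decide), fO (i := 10) rfl (by decide) (by decide),
        fO (i := 11) rfl (by decide) (by decide), fO (i := 12) rfl (by decide) (by decide),
        fO (i := 13) rfl (by decide) (by decide), fO (i := 14) rfl (by decide) (by decide)]) :
        f0 (yy (3 + a)) = yy (3 + a) * yy 3))
    (fun d hd => by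
      obtain ⟨d, rfl⟩ := QuotientGroup.mk'_surjective Z d
      obtain ⟨n, hn, e⟩ := mk_D.1 hd
      exact (mk_D (y := f0 d)).2 (e ▸ β_D fs hn : ∃ n ∈ Y, φ d = _))
    (QuotientGroup.mk' Z ⟨_, gY⟩) fun v _ => by
      obtain ⟨v, rfl⟩ := QuotientGroup.mk'_surjective Z v
      rw [k, k]; exact congrArg _ (Subtype.ext (h2 _ v.2))
  obtain ⟨u, rfl⟩ := QuotientGroup.mk'_surjective Z u
  rw [k, ← map_mul] at e
  obtain ⟨n, hn, e⟩ := mk_D.1 e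
  replace e : u * β u = n * 𝔠 * n⁻¹ := e
  refine .inr ⟨n, hn, ?_⟩
  have e2 : u * β u * (u * β u) = 1 := by rw [e, conj_mul, c_sq']; simp
  rw [← e, map_mul, h2 _ u.2, ← inv_eq_of_mul_eq_one_left e2, mul_inv_rev, ← map_inv]
  rcases mk_eq (a := u * u) (b := 1) (dat.V_sq _ hu) with a | a
  · rw [inv_eq_of_mul_eq_one_left (a : (u : HN) * u = 1)]
  · have : (u : HN)⁻¹ = u * 𝔰 := by
      rw [inv_eq_iff_mul_eq_one, ← mul_assoc, show (u : HN) * u = 1 * 𝔰 from a, one_mul, s_sq]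
    rw [this, map_mul, hs, mul_assoc, ← mul_assoc 𝔰, ← s_com u.2, mul_assoc, s_sq, mul_one]
theorem sq_inner (β : MulAut HN) : ∃ g, ∀ a, β (β a) = g * a * g⁻¹ := by
  obtain ⟨g, e⟩ : β * β ∈ Cfsg.Inn HN := Subgroup.mul_self_mem_of_index_two card_Out β
  exact ⟨g, fun a => (DFunLike.congr_fun e a).symm⟩
theorem cen1 {z : HN} (h : ∀ a, Commute z a) : z = 1 := by
  obtain ⟨q, rfl⟩ := cent_c (h _)
  rcases centU (q := q) (θ_inj (by simpa only [map_mul] using (h (θ _)).eq))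
    (θ_inj (by simpa only [map_mul] using (h (θ _)).eq)) with rfl | rfl
  · exact map_one θ
  · have := ct
    rw [(h _).eq, mul_left_inj, eq_inv_iff_mul_eq_one, ← pow_two] at this
    exact absurd this (t_pow_ne (by norm_num))
theorem fix_s (β : MulAut HN) (h2 : ∀ a, β (β a) = a) : ∃ h, β (h * 𝔰 * h⁻¹) = h * 𝔰 * h⁻¹ := by
  classical
  have hs : ∃ m, m * 𝔰 * m⁻¹ = β 𝔰 := isConj_iff.1 (((two (by rw [← map_mul, s_sq, map_one])
    (mt (map_eq_one_iff β β.injective).1 s_one)).resolve_left fun h => nc0 ((β_c β).symm.trans 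
      (h2 𝔰 ▸ (β.toMonoidHom.map_isConj h).symm : IsConj (β 𝔠) 𝔰))).symm)
  obtain ⟨m, e⟩ := hs
  have a : ∀ x : clsIn ⊤ 𝔰, β x ∈ clsIn ⊤ 𝔰 := by
    rintro ⟨_, h, -, rfl⟩
    exact ⟨β h * m, trivial, by rw [map_mul, map_mul, ← e, map_inv]; group⟩
  have := Fintype.ofFinite (clsIn ⊤ 𝔰)
  have e1 := ncard_clsIn_mul ⊤ 𝔰
  rw [top_inf_eq, show centralizer {𝔰} = Y from le_antisymm (fun _ h => centY (mem_centralizer_singleton_iff.1 h))
    fun _ h => mem_centralizer_singleton_iff.2 (s_com h), card_Y, Subgroup.card_top, card, ← Nat.card_coe_set_eq,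
    Nat.card_eq_fintype_card] at e1
  let f : clsIn ⊤ 𝔰 → clsIn ⊤ 𝔰 := fun x => ⟨_, a x⟩
  have i : Function.Involutive f := fun x => Subtype.ext (h2 x)
  obtain ⟨⟨_, h, hh, rfl⟩, e⟩ := Equiv.Perm.exists_fixed_point_of_prime (p := 2) (n := 1) (α := clsIn ⊤ 𝔰) (by omega)
    (σ := i.toPerm) (Equiv.ext i)
  exact ⟨h, congrArg Subtype.val e⟩
section
variable {G : Type*} [Group G] [Finite G] {ψ : HN →* G} (hψ : Function.Injective ψ)
  (hc : ∀ g, Commute g (ψ 𝔠) → g ∈ normalizer (ψ.range : Set G))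
  (hT : ∀ g, Commute (g * ψ 𝔠 * g⁻¹) (ψ 𝔠) → g * ψ 𝔠 * g⁻¹ ∈ ψ.range) (hn : ¬ IsConj (ψ 𝔠) (ψ 𝔰))
  (ho : ∀ a, a * a = 1 → (∀ h, Commute a (ψ h)) → a = 1)
include hψ
theorem exβ {m : G} (h : m ∈ normalizer (ψ.range : Set G)) : ∃ β : MulAut HN, ∀ a, ψ (β a) = m * ψ a * m⁻¹ := by
  choose f hf using fun a => (mem_normalizer_iff.1 h (ψ a)).1 ⟨a, rfl⟩
  exact ⟨MulEquiv.ofBijective (MonoidHom.mk' f fun a b => hψ (by simp only [map_mul, hf, conj_mul]))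
    (Finite.injective_iff_bijective.1 fun a b e => hψ (conj_injective ((hf a).symm.trans
      ((congrArg ψ e).trans (hf b))))), hf⟩
include ho
theorem inn {b : G} {g y : HN} (h : ∀ a, ψ (g * a * g⁻¹) = b * ψ a * b⁻¹) (e : b * b = ψ y) : b = ψ g := by
  have a : ∀ a, Commute ((ψ g)⁻¹ * b) (ψ a) := fun a => by
    rw [Commute, SemiconjBy, mul_assoc, mul_inv_eq_iff_eq_mul.1 (h a).symm]; simp [mul_assoc]
  have e1 : (ψ g)⁻¹ * b * ((ψ g)⁻¹ * b) = ψ (g⁻¹ * g⁻¹ * y) := by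
    rw [← mul_assoc, (a g).inv_right.eq, map_mul, map_mul, map_inv, ← e]; group
  rw [cen1 (z := g⁻¹ * g⁻¹ * y) fun x => hψ (by
    rw [map_mul, map_mul ψ x, ← e1]; exact ((a x).mul_left (a x)).eq), map_one] at e1
  exact (inv_mul_eq_one.1 (ho _ e1 a)).symm
theorem inv_M {b : G} (h : b ∈ normalizer (ψ.range : Set G)) (b2 : b * b = 1) :
    ∃ h, Commute b (ψ (h * 𝔠 * h⁻¹)) := by
  obtain ⟨β, e⟩ := exβ hψ h
  have h2 : ∀ a, β (β a) = a := fun a => hψ (by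
    rw [e, e, ← mul_assoc, ← mul_assoc, b2, mul_assoc, ← mul_inv_rev, b2]; simp)
  obtain ⟨m, hm⟩ := fix_s β h2
  obtain ⟨γ, eγ⟩ : ∃ γ : MulAut HN, ∀ a, γ a = m⁻¹ * β (m * a * m⁻¹) * m :=
    ⟨MulAut.conj m⁻¹ * β * MulAut.conj m, fun a => by rw [MulAut.mul_apply, MulAut.mul_apply, MulAut.conj_apply, inv_inv]; rfl⟩
  rcases outer (β := γ) (by rw [eγ, hm]; group)
    (fun y _ => by rw [eγ, eγ, show ∀ z, m * (m⁻¹ * z * m) * m⁻¹ = z from fun z => by group, h2]; group) with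
    ⟨g, e'⟩ | ⟨n, -, e'⟩
  · obtain rfl := inn hψ ho (g := m * g * m⁻¹) (y := 1) (fun a => by
      rw [← e]; congr 1
      have := e' (m⁻¹ * a * m)
      rw [eγ, show ∀ z, m * (m⁻¹ * z * m) * m⁻¹ = z from fun z => by group] at this
      rw [show β a = m * (m⁻¹ * β a * m) * m⁻¹ by group, this]; group) (b2.trans (map_one ψ).symm)
    generalize m * g * m⁻¹ = g at b2
    by_cases g1 : g = 1
    · exact ⟨1, by simp [g1]⟩
    rcases two (hψ (by rw [map_mul, b2, map_one])) g1 with h | h <;> obtain ⟨k, rfl⟩ := isConj_iff.1 h.symm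
    exacts [⟨k, Commute.refl _⟩, ⟨k, ((show Commute 𝔠 𝔰 from s_com cY).symm.map (MulAut.conj k)).map ψ⟩]
  · refine ⟨m * n, mul_inv_eq_iff_eq_mul.1 ((e _).symm.trans (congrArg ψ ?_))⟩
    rw [eγ] at e'
    rw [show m * n * 𝔠 * (m * n)⁻¹ = m * (n * 𝔠 * n⁻¹) * m⁻¹ by group]
    nth_rw 2 [← e']
    group
include hc hT hn
theorem fix_t {g : G} (h : g * ψ 𝔠 * g⁻¹ ∈ normalizer (ψ.range : Set G)) : g ∈ normalizer (ψ.range : Set G) := by
  obtain ⟨k, e⟩ := inv_M hψ ho h (by rw [conj_mul, ← map_mul, c_sq']; simp)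
  obtain ⟨y, ey⟩ := hT ((ψ k)⁻¹ * g) (by simpa [mul_assoc] using e.map (MulAut.conj (ψ k)⁻¹))
  have a : IsConj (ψ 𝔠) (ψ y) := isConj_iff.2 ⟨_, ey.symm⟩
  obtain ⟨m, em⟩ := isConj_iff.1 ((two (d := y) (hψ (by rw [map_mul, ey, conj_mul, ← map_mul, c_sq']; simp))
    fun e => c_one (hψ (by simpa [e] using a))).resolve_right fun h => hn (a.trans (ψ.map_isConj h)))
  have := hc (ψ m * ((ψ k)⁻¹ * g)) (mul_inv_eq_iff_eq_mul.1 (by
    nth_rw 2 [← em]; rw [map_mul, map_mul, ey, map_inv]; group))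
  exact (mul_mem_cancel_left (inv_mem (ψ.range.le_normalizer ⟨k, rfl⟩))).1
    ((mul_mem_cancel_left (ψ.range.le_normalizer ⟨m, rfl⟩)).1 this)
theorem cent_s' {g : G} (hg : g * ψ 𝔰 = ψ 𝔰 * g) : g ∈ normalizer (ψ.range : Set G) := by
  set M := normalizer (ψ.range : Set G)
  let C : Subgroup G := centralizer {ψ 𝔰}
  let t : C := ⟨ψ 𝔰, mem_centralizer_singleton_iff.2 rfl⟩
  have t2 : t * t = 1 := Subtype.ext (by simp [t, ← map_mul, s_sq])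
  have : (zpowers t).Normal := ⟨fun a ha g => (mem_zp t2).2 (((mem_zp t2).1 ha).imp (fun e => by simp [e])
    fun e => Subtype.ext (by simp [e, t, mem_centralizer_singleton_iff.1 g.2]))⟩
  let f : Y →* C := (ψ.comp Y.subtype).codRestrict C fun y => mem_centralizer_singleton_iff.2 (by
    simp [← map_mul, s_com y.2])
  let π := QuotientGroup.mk' (zpowers t)
  let ι := QuotientGroup.map Z (zpowers t) f (zpowers_le.2 (mem_zpowers t))
  have hι : Function.Injective ι := (injective_iff_map_eq_one ι).2 fun a h => by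
    obtain ⟨a, rfl⟩ := QuotientGroup.mk_surjective a
    exact (QuotientGroup.eq_one_iff _).2 (mem_Z.2 (((mem_zp t2).1 ((QuotientGroup.eq_one_iff _).1 h)).imp
      (fun e => hψ ((congrArg Subtype.val e).trans (map_one ψ).symm)) fun e => hψ (congrArg Subtype.val e)))
  have hM : ∀ a, ψ a ∈ M := fun a => ψ.range.le_normalizer ⟨a, rfl⟩
  have mM : ∀ x : C, π x ∈ (M.subgroupOf C).map π ↔ x.1 ∈ M := fun x => by
    rw [← mem_comap, comap_map_eq_self (H := M.subgroupOf C) ((QuotientGroup.ker_mk' _).le.trans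
      (zpowers_le.2 (hM _)))]; rfl
  have ex : ∀ x : C, x.1 ∈ M → ∃ β : MulAut HN, (∀ a, ψ (β a) = x * ψ a * (x : G)⁻¹) ∧ ∃ hs : β 𝔰 = 𝔰, ∀ y : Y,
      π x * ι (QuotientGroup.mk' Z y) * (π x)⁻¹ = ι (QuotientGroup.mk' Z ⟨_, β_Y hs y.2⟩) := fun x hx => by
    obtain ⟨β, e⟩ := exβ hψ hx
    exact ⟨β, e, hψ (by rw [e, mem_centralizer_singleton_iff.1 x.2, mul_inv_cancel_right]), fun y =>
      congrArg π (Subtype.ext (e y).symm : x * f y * x⁻¹ = f ⟨_, _⟩)⟩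
  have Dc : ∀ n ∈ (M.subgroupOf C).map π, ∀ d ∈ ι '' DD gg, n * d * n⁻¹ ∈ ι '' DD gg := by
    rintro _ ⟨x, hx, rfl⟩ _ ⟨d, hd, rfl⟩
    obtain ⟨d, rfl⟩ := QuotientGroup.mk'_surjective Z d
    obtain ⟨β, -, hs, e⟩ := ex x hx
    obtain ⟨n, hn, e'⟩ := mk_D.1 hd
    exact ⟨_, mk_D.2 (e' ▸ β_D hs hn : ∃ n ∈ Y, β d = _), (e d).symm⟩
  have L := dat.loc.map hι
  refine (mM ⟨g, mem_centralizer_singleton_iff.2 hg⟩).1 ((L.top' (N := (M.subgroupOf C).map π)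
    ⟨?_, fun n hn v hv => ?_, Dc, ?_, ?_⟩ ?_).ge trivial)
  · rintro _ ⟨v, -, rfl⟩
    obtain ⟨v, rfl⟩ := QuotientGroup.mk'_surjective Z v
    exact ⟨f v, hM _, rfl⟩
  · exact (closure_le ((dat.V.map ι).comap (MulAut.conj n).toMonoidHom)).2 (fun d hd => L.DV _ (Dc n hn d hd))
      ((MonoidHom.map_closure ι _).le (map_mono dat.V_gen hv))
  · rintro _ ⟨x, hx, rfl⟩
    obtain ⟨β, -, hs, e⟩ := ex x hx
    obtain ⟨k, ek⟩ := sq_inner β
    have hk : k ∈ Y := centY (mul_inv_eq_iff_eq_mul.1 (by rw [← ek, hs, hs]))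
    refine ⟨ι (QuotientGroup.mk' Z ⟨k, hk⟩), ⟨_, trivial, rfl⟩, ?_⟩
    rintro _ ⟨v, -, rfl⟩
    obtain ⟨v, rfl⟩ := QuotientGroup.mk'_surjective Z v
    rw [mul_inv_rev, ← mul_assoc, mul_assoc (π x), mul_assoc (π x), e, e, ← map_inv, ← map_mul, ← map_mul,
      ← map_inv, ← map_mul, ← map_mul]
    exact congrArg (fun y => ι (QuotientGroup.mk' Z y)) (Subtype.ext (ek v))
  · rintro _ ⟨x, hx, rfl⟩ hV b2
    obtain ⟨β, e0, hs, e⟩ := ex x hx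
    obtain ⟨y, hy, ey⟩ : ∃ y, (∀ a ∈ Y, a * y = y * a) ∧ (x : G) * x = ψ y := by
      rcases (mem_zp t2).1 ((QuotientGroup.eq_one_iff (x * x)).1 b2) with e | e
      exacts [⟨1, by simp, (congrArg Subtype.val e).trans (map_one ψ).symm⟩, ⟨𝔰, fun _ => s_com, congrArg Subtype.val e⟩]
    rcases outer hs (fun a ha => hψ (by
      rw [e0, e0, ← mul_assoc, ← mul_assoc, ey, mul_assoc, ← mul_inv_rev, ey, ← map_mul, ← hy a ha, map_mul,
        mul_inv_cancel_right])) with ⟨k, ek⟩ | ⟨n, hn, en⟩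
    · have hk : k ∈ Y := centY (mul_inv_eq_iff_eq_mul.1 (by rw [← ek, hs]))
      exact .inl (L.two _ ⟨QuotientGroup.mk' Z ⟨k, hk⟩, trivial, congrArg π (Subtype.ext
        (inn hψ ho (fun a => ek a ▸ e0 a) ey).symm : f ⟨k, hk⟩ = x)⟩ hV b2)
    · refine .inr ⟨_, ⟨QuotientGroup.mk' Z ⟨_, mul_mem (mul_mem hn cY) (inv_mem hn)⟩, mk_D.2 ⟨n, hn, rfl⟩, rfl⟩, ?_⟩
      rw [eq_comm, ← mul_inv_eq_iff_eq_mul, e]
      exact congrArg (fun y => ι (QuotientGroup.mk' Z y)) (Subtype.ext en)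
  · rintro _ ⟨d, hd, rfl⟩ k h
    obtain ⟨d, rfl⟩ := QuotientGroup.mk'_surjective Z d
    obtain ⟨k, rfl⟩ := QuotientGroup.mk'_surjective _ k
    obtain ⟨n, -, e⟩ := mk_D.1 hd
    have : (k : G) * ψ d * (k : G)⁻¹ ∈ M := (mM (k * f d * k⁻¹)).1 h
    exact (mM k).2 ((mul_mem_cancel_right (hM n)).1 (fix_t hψ hc hT hn ho (by simpa [M, e, mul_assoc] using this)))
theorem fixd' {d : HN} (h : d * d = 1) (h1 : d ≠ 1) {g : G} (hg : g * ψ d * g⁻¹ ∈ normalizer (ψ.range : Set G)) :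
    g ∈ normalizer (ψ.range : Set G) := by
  rcases two h h1 with e | e <;> obtain ⟨m, rfl⟩ := isConj_iff.1 e.symm <;>
    refine (mul_mem_cancel_right (ψ.range.le_normalizer ⟨m, rfl⟩)).1 ?_
  · exact fix_t hψ hc hT hn ho (by simpa [mul_assoc] using hg)
  obtain ⟨k, e⟩ := inv_M hψ ho hg (by rw [conj_mul, ← map_mul, h]; simp)
  have := fix_t hψ hc hT hn ho (g := (g * ψ m)⁻¹ * ψ k) (cent_s' hψ hc hT hn ho (by
    simpa [mul_assoc] using (e.map (MulAut.conj (g * ψ m)⁻¹)).symm.eq))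
  exact inv_mem_iff.1 ((mul_mem_cancel_right (ψ.range.le_normalizer ⟨k, rfl⟩)).1 this)
theorem norm_top : normalizer (ψ.range : Set G) = ⊤ := by
  have o : ∀ {d : HN}, d * d = 1 → d ≠ 1 → orderOf (ψ d) = 2 := fun h h1 =>
    (orderOf_injective ψ hψ _).trans (orderOf_eq_prime ((pow_two _).trans h) h1)
  have a : ∀ x ∈ {x | IsConj (ψ 𝔠) x} ∪ {x | IsConj (ψ 𝔰) x}, ∃ d g, d * d = 1 ∧ d ≠ 1 ∧ g * ψ d * g⁻¹ = x := by
    rintro x (h | h) <;> obtain ⟨g, e⟩ := isConj_iff.1 h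
    exacts [⟨_, g, c_sq', c_one, e⟩, ⟨_, g, s_sq, s_one, e⟩]
  have b : ∀ x ∈ {x | IsConj (ψ 𝔠) x} ∪ {x | IsConj (ψ 𝔰) x}, x ∈ normalizer (ψ.range : Set G) →
      ∃ u, u * u = 1 ∧ ψ u = x := fun x hx hx' => by
    obtain ⟨d, g, h, h1, rfl⟩ := a x hx
    obtain ⟨u, e⟩ := (mem_normalizer_iff.1 (fixd' hψ hc hT hn ho h h1 hx') (ψ d)).1 ⟨d, rfl⟩
    exact ⟨u, hψ (by rw [map_mul, e, conj_mul, ← map_mul, h]; simp), e⟩
  refine Cfsg.Agent.S5439.result _ _ _ _ (o c_sq' c_one) (o s_sq s_one) rfl rfl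
    (fun e => hn ((Set.ext_iff.1 e _).2 (IsConj.refl _))) _ (fun x hx => ?_) fun u ha ha' v hb hb' h e g hg => ?_
  · obtain ⟨d, g, h, h1, rfl⟩ := a x hx
    refine ⟨g, QuotientGroup.eq.2 (by simpa [mul_assoc] using ψ.range.le_normalizer ⟨d, rfl⟩), fun k hk => ?_⟩
    obtain ⟨k, rfl⟩ := QuotientGroup.mk_surjective k
    refine QuotientGroup.eq.2 (fixd' hψ hc hT hn ho h h1 ?_)
    simpa [mul_assoc] using inv_mem (QuotientGroup.eq.1 hk)
  · obtain ⟨u, u2, rfl⟩ := b u (.inl ha) ha'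
    obtain ⟨v, v2, rfl⟩ := b v hb hb'
    rw [← map_mul, ← map_mul] at e
    refine fixd' hψ hc hT hn ho (d := u * v) ?_ (fun e => h (congrArg ψ ?_)) ?_
    · rw [mul_assoc, ← mul_assoc v, ← hψ e, mul_assoc, v2, mul_one, u2]
    · exact (eq_inv_of_mul_eq_one_left e).trans (inv_eq_of_mul_eq_one_right v2)
    · rw [map_mul, mem_centralizer_singleton_iff.1 hg, mul_inv_cancel_right, ← map_mul]
      exact ψ.range.le_normalizer ⟨_, rfl⟩
end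
end H15K
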